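import Cfsg.Agent.Lib.Rec.U43Q

/-! Kernel checks in the model of `Q = Q₈ * Q₈`. -/

set_option autoImplicit false
set_option linter.all false
set_option maxRecDepth 100000

namespace CA.U43B

open CA.CNet CA.CWord CA.RegM CA.U43Q

universe u

section
variable {G : Type u} [Group G]

/-- `p` acts on words by `φ` -/
def Act (g : ℕ → G) (p : G) (φ : Word → Word) : Prop := ∀ w, p * ev g w * p⁻¹ = ev g (φ w)

noncomputable def inn (y w : Word) : Word := y ++ w ++ winv y

theorem Act.mul {g : ℕ → G} {p q : G} {φ ψ : Word → Word} (h : Act g p φ) (h' : Act g q ψ) :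
    Act g (p * q) fun w => φ (ψ w) := fun w => by rw [← h, ← h']; group

theorem Act.pow {g : ℕ → G} {p : G} {φ : Word → Word} (h : Act g p φ) (k : ℕ) :
    Act g (p ^ k) φ^[k] := by
  induction k with
  | zero => exact fun w => by simp
  | succ k ih => rw [pow_succ]; exact ih.mul h

theorem act_inn (g : ℕ → G) (y : Word) : Act g (ev g y) (inn y) := fun w => by
  rw [inn, ev_append, ev_append, ev_winv]

theorem len_le {E : Subgroup G} [Finite G] {l : List G} (h : l.Nodup) (h' : ∀ y ∈ l, y ∈ E) :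
    l.length ≤ Nat.card E := by
  classical
  rw [← List.toFinset_card_of_nodup h, ← Set.ncard_coe_finset]
  exact Set.ncard_le_ncard (t := (E : Set G))
    (fun y hy => h' y (List.mem_toFinset.1 (Finset.mem_coe.1 hy))) (Set.toFinite _)

theorem le_len {E : Subgroup G} {l : List G} (h' : ∀ y ∈ E, y ∈ l) : Nat.card E ≤ l.length := by
  classical
  refine le_trans ?_ (List.toFinset_card_le l)
  rw [← Set.ncard_coe_finset]
  exact Set.ncard_le_ncard (s := (E : Set G))
    (fun y hy => Finset.mem_coe.2 (List.mem_toFinset.2 (h' y hy))) (Finset.finite_toSet _)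

end

def Z : Word := [0,0]
def S : Word := [0,4]
def ZS : Word := [0,0,0,4]
def A : Word := [2,6]
def B : Word := [2,4,6]
def T : Word := [0,2,4]

def vk (w : Word) : Prop := key w = key [] ∨ key w = key Z ∨ key w = key S ∨ key w = key ZS
noncomputable instance (w : Word) : Decidable (vk w) := by unfold vk; infer_instance
def ag (φ ψ : Word → Word) : Prop := ∀ u ∈ ws, key (φ u) = key (ψ u)
noncomputable instance (φ ψ : Word → Word) : Decidable (ag φ ψ) := by unfold ag; infer_instance
def σ1 : List Word := [[2], [0,2], [4], [6]]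
def σ2 : List Word := [[0], [2], [6], [4,6]]
def α0 : List Word := [[4], [6], [0], [2]]
def β0 : List Word := [[4], [4,6], [0], [3,1]]
def T2 : List (List Word) := [[[1], [2, 1], [5], [6, 5]], [[1], [2, 1], [5], [7, 5]],
  [[1], [3, 1], [5], [6, 5]], [[1], [3, 1], [5], [7, 5]], [[5], [7], [1], [3]], [[5], [6], [1], [2]],
  [[5], [6, 5], [1], [2, 1]], [[5], [7, 5], [1], [3, 1]], [[4], [7], [0], [3]], [[4], [6], [0], [2]],
  [[4], [6, 5], [0], [3, 1]], [[4], [7, 5], [0], [2, 1]]]

theorem k_nrm : ∀ w ∈ El, key (w ++ w) = key [] → key w ≠ key [] → key w ≠ key Z →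
    ∃ e ∈ [0, 1, 2], ∃ f ∈ [0, 1, 2], ∃ y ∈ [[], [2]],
      key (inn y ((subst σ1)^[e] ((subst σ2)^[f] w))) = key S ∧
      key (inn y ((subst σ1)^[e] ((subst σ2)^[f] Z))) = key Z := by decide +kernel

theorem k_z : ∀ w ∈ El, key (w ++ Z) = key (Z ++ w) := by decide +kernel

theorem k_cs : ∀ w ∈ El, key (w ++ S) = key (S ++ w) → key w ≠ key [] → key w ≠ key S →
    key w = key Z ∨ key (w ++ S) = key Z ∨ ∃ c ∈ [[0], A, B], key (c ++ S) = key (S ++ c) ∧
      key (inn c w ++ winv w) = key Z := by decide +kernel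

theorem k_c : ∀ w ∈ El, ag (inn w) id → key w = key [] ∨ key w = key Z := by decide +kernel

theorem k_type : ∀ w0 ∈ El, vk (w0 ++ [1]) → ∀ w2 ∈ El, key (w0 ++ w2) = key S → ∀ w1 ∈ El, ∀ w3 ∈ El,
    vk (w1 ++ w3 ++ winv A) → (∀ r ∈ rels, key (subst [w0, w1, w2, w3] r) = key []) →
    ag (fun u => subst [w0, w1, w2, w3] (subst [w0, w1, w2, w3] u)) id →
    (∀ y ∈ El, ¬ ag (subst [w0, w1, w2, w3]) (inn y)) → [w0, w1, w2, w3] ∈ T2 := by decide +kernel

theorem k_pair : ∀ α ∈ T2, ∀ β ∈ T2, (∀ y ∈ El, ¬ ag (fun u => subst α (subst β u)) (inn y)) →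
    ag (fun u => subst α (subst β (subst α (subst β u)))) (inn S) →
    (∀ X ∈ [A, B], key (subst α X ++ winv X) ≠ key Z ∧ key (subst β X ++ winv X) ≠ key Z) ∧
    ((∀ X ∈ [A, B], key (subst α X ++ winv X) ≠ key S ∧ key (subst β X ++ winv X) ≠ key S) →
      ∃ e ∈ [[], S], ∃ f ∈ [[], S],
        (ag (fun u => inn e (subst α u)) (subst α0) ∧ ag (fun u => inn f (subst β u)) (subst β0)) ∨
        (ag (fun u => inn e (subst β u)) (subst α0) ∧ ag (fun u => inn f (subst α u)) (subst β0))) := by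
  decide +kernel

theorem k_xa : ag (fun u => subst α0 (subst σ1 (subst α0 u))) (subst σ2) := by decide +kernel

theorem k_xb : ag (fun u => subst β0 (subst σ1 (subst β0 u)))
    (fun u => subst σ2 (subst σ2 (inn [4] u))) := by decide +kernel

end CA.U43B
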