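import Cfsg.Agent.Lib.Rec.SzF
import Cfsg.Agent.Lib.Rec.U43B0
import Cfsg.Agent.Lib.Grp.H7Lge2
import Cfsg.Agent.Lib.Grp.Fstar
import Cfsg.Agent.Lib.Lin.CFormOmega
import Cfsg.Agent.Lib.Lin.CFormOrd
import Cfsg.Agent.Lib.Lin.CFormOBr
import Cfsg.Agent.Lib.Loc.H6Qd
import Cfsg.Agent.Lib.GW.GW14

/-! Groups of Suzuki type: coordinates for the involution centraliser. -/

set_option autoImplicit false
set_option linter.all false
set_option maxRecDepth 100000

namespace CA.SzA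

open CA.CNet CA.CWord CA.CPres CA.RegM CA.SzQ CA.SzF Subgroup CA.BG CA.GW CA.H7Lge Cfsg CA.CForm
open CA.U43B (Act inn act_inn)
open scoped commutatorElement

universe u

theorem an : Aniso (1 : ZMod 2) 1 := by unfold Aniso; decide

theorem card_om : Nat.card (Omega (ZMod 2) (quadFormMinus 2 (ZMod 2) 1 1)) = 25920 := by
  have hn := minusForm_nondeg 2 an
  have h1 := (minusForm_isIndex 2 an).card_isom_minus hn (finrank_minus 2)
  have h2 := hn.index_commutator_of_two_eq_zero (Or.inr (Or.inl (by rw [finrank_minus]; decide))) rfl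
  have h3 := (commutator (minusForm 2 (1 : ZMod 2) 1).Isom).card_mul_index
  rw [h1, h2, Nat.card_zmod] at h3
  refine (Nat.card_congr (omegaEquiv (minusForm 2 (1 : ZMod 2) 1)).toEquiv).trans ?_
  simp [Finset.prod_range_succ] at h3
  omega

theorem card_hom {A B : Type*} [Group A] [Group B] (f : A →* B) : Nat.card A = Nat.card f.range * Nat.card f.ker := by
  rw [← f.ker.card_mul_index, index_ker, mul_comm]

def vv (k : ℕ) : (Fin 2 ⊕ Fin 2) ⊕ Fin 2 → ZMod 2 :=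
  [Sum.elim (Sum.elim ![1,0] ![1,0]) ![0,0], Sum.elim (Sum.elim ![1,1] ![0,1]) ![0,0],
   Sum.elim (Sum.elim ![0,1] ![0,1]) ![0,0], Sum.elim (Sum.elim ![1,1] ![1,0]) ![0,0],
   Sum.elim (Sum.elim ![0,0] ![0,0]) ![1,0], Sum.elim (Sum.elim ![0,0] ![0,0]) ![0,1]].getD k 0

theorem k_vv : ∀ k < 6, quadFormMinus 2 (ZMod 2) 1 1 (vv k) = 1 ∧ ∀ l < 6,
    quadFormMinus 2 (ZMod 2) 1 1 (vv k + vv l) = if k / 2 = l / 2 ∧ k ≠ l then 1 else 0 := by
  unfold quadFormMinus; decide +kernel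

/-- the type of the extraspecial group -/
theorem gens_of {E : Type*} [Group E] [Finite E] (h : IsExtraspecial 2 E) (hc : Nat.card E = 2 ^ 7)
    {R : Subgroup (MulAut E)} (hR : Nat.card R = 1658880) :
    R.index = 2 ∧ ∃ (g : ℕ → E) (ζ : E), center E = zpowers ζ ∧ (∀ k < 6, g k * g k = ζ) ∧
      ∀ k < 6, ∀ l < 6, ⁅g k, g l⁆ = if k / 2 = l / 2 ∧ k ≠ l then ζ else 1 := by
  obtain ⟨n, m, c, h1, h2, h3, h4, h5⟩ := H7Ext.exists_two h
  obtain rfl : n = 2 := by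
    have := Nat.pow_right_injective (le_refl 2) (hc.symm.trans h4); omega
  have a1 := card_hom (c.ind h1)
  have a2 := card_hom (MulAut.conj : E →* MulAut E)
  have a3 : (MulAut.conj : E →* MulAut E).ker = center E := by
    ext x; simp only [MonoidHom.mem_ker, mem_center_iff, MulEquiv.ext_iff, MulAut.conj_apply, MulAut.one_apply,
      mul_inv_eq_iff_eq_mul]
    exact forall_congr' fun _ => eq_comm
  have a4 : Nat.card (center E) = 2 := by
    rw [h1, Nat.card_zpowers]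
    exact orderOf_eq_prime (c.ζ_pow 1) fun e => absurd (c.ζ_eq_one.1 e) (by decide)
  rw [a3, a4, hc] at a2
  rw [c.ker_ind h1, MonoidHom.range_eq_top.2 (c.ind_surj h1), card_top] at a1
  have a5 := R.card_mul_index
  have fr : Module.finrank (ZMod 2) (Fin (2 * (2 + 1)) → ZMod 2) = 6 := by simp
  rw [hR, a1, show Nat.card (Inn E) = 64 by change Nat.card (MulAut.conj : E →* MulAut E).range = 64; omega] at a5
  rcases h5 with ⟨rfl, -⟩ | ⟨rfl, -⟩
  · rw [h3.card_isom_plus h2 fr, Nat.card_zmod] at a5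
    simp [Finset.prod_range_succ] at a5
    omega
  rw [h3.card_isom_minus h2 fr, Nat.card_zmod] at a5
  obtain ⟨e, he⟩ := h3.equivalent_minus h2 fr an
  have hq : ∀ v, c.q (e.symm v) = quadFormMinus 2 (ZMod 2) 1 1 v := fun v => by
    have := he.Q_eq (e.symm v)
    rw [e.apply_symm_apply] at this
    exact this.symm
  refine ⟨by simp [Finset.prod_range_succ] at a5; omega, fun k => c.s (e.symm (vv k)), c.ζ 1, h1,
    fun k hk => ?_, fun k hk l hl => ?_⟩
  · rw [← sq, ← c.ζ_q, c.π_s, hq, (k_vv k hk).1]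
  · have := c.q_add (e.symm (vv k)) (e.symm (vv l))
    rw [← map_add, hq, hq, hq, (k_vv k hk).1, (k_vv l hl).1, (k_vv k hk).2 l hl,
      show (1 : ZMod 2) + 1 = 0 from rfl, zero_add] at this
    rw [← c.ζ_b, c.π_s, c.π_s, ← this]
    split_ifs
    exacts [rfl, c.ζ_zero]

variable {G : Type u} [Group G]

theorem rels_of {g : ℕ → G} {z : G} (hz : z * z = 1) (h1 : ∀ k < 6, g k * g k = z)
    (h2 : ∀ k < 6, ∀ l < 6, ⁅g k, g l⁆ = if k / 2 = l / 2 ∧ k ≠ l then z else 1) :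
    ∀ r ∈ rels, ev g r = 1 := by
  have a : ∀ k < 6, ∀ l < 6, k / 2 ≠ l / 2 → g k * (g l * ((g k)⁻¹ * ((g l)⁻¹ * 1))) = 1 := fun k hk l hl e => by
    have := h2 k hk l hl
    rw [if_neg (by omega), commutatorElement_def] at this
    simpa only [mul_assoc, mul_one] using this
  have b : ∀ k < 6, g 0 * (g 0 * ((g k)⁻¹ * ((g k)⁻¹ * 1))) = 1 := fun k hk => by
    rw [← mul_assoc, h1 0 (by omega), ← h1 k hk]; group
  have c : ∀ k < 6, ∀ l < 6, k / 2 = l / 2 ∧ k ≠ l → g k * (g l * ((g k)⁻¹ * (g l * 1))) = 1 := fun k hk l hl e => by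
    have := h2 k hk l hl
    rw [if_pos e, commutatorElement_def] at this
    calc _ = g k * g l * (g k)⁻¹ * (g l)⁻¹ * (g l * g l) := by group
      _ = 1 := by rw [this, h1 l hl, hz]
  simp only [rels, List.forall_mem_cons, List.not_mem_nil, false_imp_iff, implies_true, and_true]
  refine ⟨?_, b 1 (by decide), c 0 (by decide) 1 (by decide) (by decide), a 0 (by decide) 2 (by decide) (by decide),
    a 0 (by decide) 3 (by decide) (by decide), a 0 (by decide) 4 (by decide) (by decide),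
    a 0 (by decide) 5 (by decide) (by decide), a 1 (by decide) 2 (by decide) (by decide),
    a 1 (by decide) 3 (by decide) (by decide), a 1 (by decide) 4 (by decide) (by decide),
    a 1 (by decide) 5 (by decide) (by decide), a 2 (by decide) 4 (by decide) (by decide),
    a 2 (by decide) 5 (by decide) (by decide), a 3 (by decide) 4 (by decide) (by decide),
    a 3 (by decide) 5 (by decide) (by decide), b 2 (by decide), b 3 (by decide),
    c 2 (by decide) 3 (by decide) (by decide), b 4 (by decide), b 5 (by decide),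
    c 4 (by decide) 5 (by decide) (by decide)⟩
  show g 0 * (g 0 * (g 0 * (g 0 * 1))) = 1
  rw [← mul_assoc, mul_one, h1 0 (by omega), hz]

theorem exists_aut [Finite G] {g g' : ℕ → G} {Q : Subgroup G} (M : Md g key El Q) (M' : Md g' key El Q) :
    ∃ α : MulAut Q, ∀ w, α ⟨ev g w, M.mem w⟩ = ⟨ev g' w, M'.mem w⟩ := by
  choose W _ hW using fun x : Q => M.all x x.2
  have h : ∀ w, ev g' (W ⟨ev g w, M.mem w⟩) = ev g' w := fun w => (M'.eq _ _).2 ((M.eq _ _).1 (hW _).symm)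
  have all : ∀ x : Q, ∃ w, x = ⟨ev g w, M.mem w⟩ := fun x => ⟨W x, Subtype.ext (hW x)⟩
  let f : Q →* Q := MonoidHom.mk' (fun x => ⟨ev g' (W x), M'.mem _⟩) fun x y => by
    obtain ⟨u, rfl⟩ := all x
    obtain ⟨v, rfl⟩ := all y
    refine Subtype.ext ?_
    have : (⟨ev g u, M.mem u⟩ * ⟨ev g v, M.mem v⟩ : Q) = ⟨ev g (u ++ v), M.mem _⟩ :=
      Subtype.ext (ev_append _ _ _).symm
    rw [this]
    exact (h _).trans ((ev_append _ _ _).trans (congrArg₂ _ (h u).symm (h v).symm))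
  refine ⟨MulEquiv.ofBijective f (Finite.injective_iff_bijective.1 fun x y e => ?_), fun w => Subtype.ext (h w)⟩
  exact Subtype.ext (by rw [hW x, hW y, M.eq, ← M'.eq]; exact congrArg Subtype.val e)

/-- the first six generators -/
def q6 (γ : ℕ → G) (i : ℕ) : G := if i < 6 then γ i else 1

theorem ev_q6 (γ : ℕ → G) {w : Word} (h : ∀ a ∈ w, a < 2 * 6) : ev (q6 γ) w = ev γ w :=
  ev_congr (fun _ hi => if_pos hi) h

def Z : Word := [0,0]
def S : Word := [0,4]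

/-- coordinates for the centraliser of `z` -/
structure SQ (γ : ℕ → G) (Q : Subgroup G) (z : G) : Prop where
  md : Md (q6 γ) key El Q
  ez : ev (q6 γ) Z = z
  one : ∀ i, 11 ≤ i → γ i = 1
  act : ∀ i < 11, Act (q6 γ) (γ i) (subst (nth sg [] i))
  cube : ∀ i, 6 ≤ i → γ i ^ 3 = 1
  ex : EX Q z
  norm : 𝓒₁(z) ≤ 𝓝(Q)
  cent : 𝓒(Q) ≤ Q
  card : ♯𝓒₁(z) = 3317760
  nwc : ∃ p, p * z * p⁻¹ ∈ Q ∧ p * z * p⁻¹ ≠ z

theorem k_sg : ∀ i < 11, (nth sg [] i).length = 6 ∧ (∀ r ∈ rels, key (subst (nth sg [] i) r) = key []) ∧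
    key (subst (nth sg [] i) Z) = key Z ∧ (6 ≤ i → ∀ w ∈ El,
      key (subst (nth sg [] i) (subst (nth sg [] i) (subst (nth sg [] i) w))) = key w) ∧
    (i < 6 → ∀ k < 6, key (inn [2 * i] [2 * k]) = key (nth (nth sg [] i) [] k)) := by decide +kernel

theorem exists_SQ [Finite G] {Q : Subgroup G} {z : G} (hQ : IsExtraspecial 2 Q) (ex : EX Q z) (h1 : 𝓒₁(z) ≤ 𝓝(Q))
    (h2 : 𝓒(Q) ≤ Q) (hc : ♯Q = 2 ^ 7) (hH : ♯𝓒₁(z) = 3317760)
    (nwc : ∃ p, p * z * p⁻¹ ∈ Q ∧ p * z * p⁻¹ ≠ z) : ∃ γ, SQ γ Q z := by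
  let θ : 𝓒₁(z) →* MulAut Q := Q.normalizerMonoidHom.comp (inclusion h1)
  have hθ : ∀ (h : 𝓒₁(z)) (x : Q), (θ h x : G) = h * x * h⁻¹ := fun _ _ => rfl
  have hZ : ∀ h : G, (∀ x ∈ Q, h * x * h⁻¹ = x) → h ∈ zpowers z := fun h e =>
    have : h ∈ 𝓒(Q) := mem_cent.2 fun x hx => (mul_inv_eq_iff_eq_mul.1 (e x hx)).symm
    ex.ctr ⟨h2 this, this⟩
  have hk : θ.ker = (zpowers z).subgroupOf 𝓒₁(z) := by
    ext h
    refine ⟨fun e => hZ h fun x hx => ?_, fun e => MulEquiv.ext fun x => Subtype.ext ?_⟩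
    · rw [← coe_inv, ← hθ h ⟨x, hx⟩, MonoidHom.mem_ker.1 e]; rfl
    · rw [hθ, coe_inv, ← ex.cz (x := (h : G)) (ex.cent x.2) e]; simp
  have a1 := card_hom θ
  rw [hk, hH, Nat.card_congr (subgroupOfEquivOfLe (ex.le.trans ex.cent)).toEquiv, ex.card] at a1
  obtain ⟨hi2, g0, ζ, e1, e2, e3⟩ := gens_of hQ hc (R := θ.range) (by omega)
  have e0 : (ζ : G) = z := by
    have := ex.map_center
    rw [e1, MonoidHom.map_zpowers] at this
    refine (ex.mem_iff.1 (this.le (mem_zpowers _))).resolve_left fun e => ex.ne ?_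
    obtain ⟨k, hk⟩ := mem_zpowers_iff.1 (this.ge (mem_zpowers _))
    rw [← hk, e, one_zpow]
  set g : ℕ → G := q6 fun i => (g0 i : G) with hg
  have g1 : ∀ i < 6, g i = g0 i := fun i hi => if_pos hi
  have g2 : ∀ i, 6 ≤ i → g i = 1 := fun i hi => if_neg (by omega)
  have hr := rels_of (g := g) ex.sq (fun k hk => by rw [g1 k hk, ← coe_mul, e2 k hk, e0]) fun k hk l hl => by
    have := congrArg Q.subtype (e3 k hk l hl)
    rw [map_commutatorElement, apply_ite Q.subtype, map_one] at this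
    rw [g1 k hk, g1 l hl, ← e0]; exact this
  have ez : ev g Z = z := by
    show g 0 * (g 0 * 1) = z
    rw [mul_one, g1 0 (by omega), ← coe_mul, e2 0 (by omega), e0]
  have md : ∀ g : ℕ → G, (∀ i, 6 ≤ i → g i = 1) → (∀ r ∈ rels, ev g r = 1) → ev g Z = z → (∀ i, g i ∈ Q) →
      Md g key El Q := fun g a b c d => by
    obtain ⟨M, hM⟩ := reg.md bound a b (c ▸ ex.ne :)
    exact eq_of_le_of_card_ge ((grp_le_iff g).2 fun w _ => ev_mem d w) (hc.trans hM.symm).le ▸ M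
  have M := md g g2 hr ez fun i => by
    rcases lt_or_ge i 6 with hi | hi
    exacts [g1 i hi ▸ (g0 i).2, g2 i hi ▸ one_mem _]
  have ex3 : ∀ i, ∃ h : G, (6 ≤ i → i < 11 → Act g h (subst (nth sg [] i))) ∧ h ^ 3 = 1 := fun i => by
    by_cases hi : 6 ≤ i ∧ i < 11
    swap
    · exact ⟨1, fun a b => absurd ⟨a, b⟩ hi, one_pow 3⟩
    obtain ⟨k1, k2, k3, k4, -⟩ := k_sg i hi.2
    generalize nth sg [] i = σ at *
    obtain ⟨α, hα⟩ := exists_aut M (md (fun i => ev g (nth σ [] i))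
      (fun i hi => by rw [nth_eq_getD, List.getD_eq_default _ _ (by omega)]; rfl)
      (fun r hr => (ev_subst _ _ _).symm.trans ((M.eq _ []).2 (k2 r hr)))
      ((ev_subst _ _ _).symm.trans (((M.eq _ _).2 k3).trans ez)) fun _ => M.mem _)
    simp only [← ev_subst] at hα
    have a3 : α * α * α = 1 := MulEquiv.ext fun ⟨x, hx⟩ => by
      obtain ⟨w, hw, rfl⟩ := M.all x hx
      rw [MulAut.mul_apply, MulAut.mul_apply, hα, hα, hα]
      exact Subtype.ext ((M.eq _ _).2 (k4 hi.1 w hw))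
    obtain ⟨h, hh⟩ : α ∈ θ.range := by
      have := mul_self_mem_of_index_two hi2 (α * α)
      rwa [← mul_assoc, a3, one_mul] at this
    have a4 : (h : G) ^ 3 ∈ zpowers z := hZ _ fun x hx => by
      have := hθ (h * h * h) ⟨x, hx⟩
      rw [map_mul, map_mul, hh, a3] at this
      rw [pow_three']; exact this.symm
    refine ⟨h * h ^ 3, fun _ _ w => ?_, ?_⟩
    · have := hθ h ⟨_, M.mem w⟩
      rw [hh, hα] at this
      rw [show ev g (subst σ w) = _ from this, mul_inv_rev, mul_assoc, mul_assoc, ← mul_assoc _ _⁻¹,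
        ← mul_assoc (_ ^ 3), ← mul_assoc (_ ^ 3), ← ex.cz (ex.cent (M.mem w)) a4]
      simp [mul_assoc]
    · rw [← pow_succ', ← pow_mul, show (3 + 1) * 3 = 3 * 2 ^ 2 from rfl, pow_mul, ex.pow4 (ex.le a4)]
  choose x x1 x2 using ex3
  have eq : q6 (fun i => if i < 6 then g i else if i < 11 then x i else 1) = g := funext fun i => by
    by_cases hi : i < 6
    · simp only [q6, if_pos hi]
    · simp only [q6, if_neg hi, g2 i (by omega)]
  refine ⟨fun i => if i < 6 then g i else if i < 11 then x i else 1, eq.symm ▸ M, eq.symm ▸ ez,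
    fun i hi => by rw [if_neg (by omega), if_neg (by omega)], fun i hi => ?_, fun i hi => ?_, ex, h1, h2, hH, nwc⟩
  · rw [eq]
    by_cases h6 : i < 6
    · rw [if_pos h6]
      refine conj_ev fun k => ?_
      rcases lt_or_ge k 6 with hk | hk
      · rw [← ev_gen g i, ← ev_gen g k, act_inn, M.eq]
        exact (k_sg i hi).2.2.2.2 h6 k hk
      · rw [g2 k hk, nth_eq_getD, List.getD_eq_default _ _ ((k_sg i hi).1 ▸ hk)]; simp [ev]
    · rw [if_neg h6, if_pos hi]; exact x1 i (by omega) hi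
  · rw [if_neg (by omega)]; split_ifs
    exacts [x2 i, one_pow 3]

theorem of_hyp [Finite G] {z : G} (hz : orderOf z = 2) {Q : Subgroup 𝓒₁(z)} [Q.Normal]
    (hF : generalizedFittingSubgroup 𝓒₁(z) = Q) (hQ : IsExtraspecial 2 Q) (hc : ♯Q = 2 ^ 7)
    (e : 𝓒₁(z) ⧸ Q ≃* Omega (ZMod 2) (quadFormMinus 2 (ZMod 2) 1 1))
    (h1 : ∃ g : G, (∃ hq : g * z * g⁻¹ ∈ 𝓒₁(z), (⟨g * z * g⁻¹, hq⟩ : 𝓒₁(z)) ∈ Q) ∧ g * z * g⁻¹ ≠ z) :
    ∃ γ, SQ γ (Q.map 𝓒₁(z).subtype) z := by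
  have h2 : 𝓒(Q) ≤ Q := hF ▸ Fstar.centralizer_fstar_le
  have h3 : 𝓒(Q.map 𝓒₁(z).subtype) ⊓ 𝓒₁(z) ≤ Q.map 𝓒₁(z).subtype := fun g hg =>
    ⟨⟨g, hg.2⟩, h2 (mem_cent.2 fun a ha => Subtype.ext (mem_cent.1 hg.1 _ (mem_map_of_mem _ ha))), rfl⟩
  have h4 := le_cent1_iff.1 (map_subtype_le Q)
  have h5 := h3 ⟨h4, mem_cent1_self z⟩
  have hQ' := CA.H6Qd.isExtraspecial_congr (Q.equivMapOfInjective _ 𝓒₁(z).subtype_injective) hQ
  obtain ⟨g, ⟨hq, h6⟩, h7⟩ := h1
  refine exists_SQ hQ' (EX.of_mem hQ' ⟨h5, h4⟩ (ne_one_of_ord hz)) ?_ (fun g hg => h3 ⟨hg, cent_le_cent1 h5 hg⟩)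
    ((card_map_of_injective 𝓒₁(z).subtype_injective).trans hc)
    (by rw [card_eq_card_quotient_mul_card_subgroup Q, Nat.card_congr e.toEquiv, card_om, hc]; rfl)
    ⟨g, ⟨_, h6, rfl⟩, h7⟩
  simpa only [normalizer_eq_top, ← MonoidHom.range_eq_map, range_subtype] using
    le_normalizer_map (H := Q) 𝓒₁(z).subtype

end CA.SzA
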