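import Cfsg.Agent.Lib.Rec.CoF
import Cfsg.Agent.Lib.Rec.SzA

/-! Groups of Conway type: coordinates for the involution centraliser. -/

set_option autoImplicit false
set_option linter.all false
set_option maxRecDepth 100000

namespace CA.CoA

open CA.CNet CA.CWord CA.CPres CA.RegM CA.CoQ CA.CoF Subgroup CA.BG CA.GW CA.H7Lge Cfsg CA.CForm
open CA.U43B (Act inn act_inn)
open CA.SzA (card_hom Z S)
open scoped commutatorElement

universe u

theorem card_om : Nat.card (Omega (ZMod 2) (quadFormPlus 4 (ZMod 2))) = 174182400 := by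
  have hn := plusForm_nondeg (ZMod 2) 4
  have h1 := (plusForm_isIndex (ZMod 2) 4).card_isom_plus (m := 3) hn (finrank_plus 4)
  have h2 := hn.index_commutator_of_two_eq_zero (Or.inr (Or.inl (by rw [finrank_plus]; decide))) rfl
  have h3 := (commutator (plusForm (ZMod 2) 4).Isom).card_mul_index
  rw [h1, h2, Nat.card_zmod] at h3
  refine (Nat.card_congr (omegaEquiv (plusForm (ZMod 2) 4)).toEquiv).trans ?_
  simp [Finset.prod_range_succ] at h3
  omega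

def vv (k : ℕ) : Fin 4 ⊕ Fin 4 → ZMod 2 :=
  [Sum.elim ![1,0,0,0] ![1,0,0,0], Sum.elim ![1,1,0,0] ![0,1,0,0], Sum.elim ![0,1,0,0] ![0,1,0,0],
   Sum.elim ![1,1,0,0] ![1,0,0,0], Sum.elim ![0,0,1,0] ![0,0,1,0], Sum.elim ![0,0,1,1] ![0,0,0,1],
   Sum.elim ![0,0,0,1] ![0,0,0,1], Sum.elim ![0,0,1,1] ![0,0,1,0]].getD k 0

theorem k_vv : ∀ k < 8, quadFormPlus 4 (ZMod 2) (vv k) = 1 ∧ ∀ l < 8,
    quadFormPlus 4 (ZMod 2) (vv k + vv l) = if k / 2 = l / 2 ∧ k ≠ l then 1 else 0 := by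
  unfold quadFormPlus; decide +kernel

/-- the type of the extraspecial group -/
theorem gens_of {E : Type*} [Group E] [Finite E] (h : IsExtraspecial 2 E) (hc : Nat.card E = 2 ^ 9)
    {R : Subgroup (MulAut E)} (hR : Nat.card R = 44590694400) :
    R.index = 2 ∧ ∃ (g : ℕ → E) (ζ : E), center E = zpowers ζ ∧ (∀ k < 8, g k * g k = ζ) ∧
      ∀ k < 8, ∀ l < 8, ⁅g k, g l⁆ = if k / 2 = l / 2 ∧ k ≠ l then ζ else 1 := by
  obtain ⟨n, m, c, h1, h2, h3, h4, h5⟩ := H7Ext.exists_two h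
  obtain rfl : n = 3 := by
    have := Nat.pow_right_injective (le_refl 2) (hc.symm.trans h4); omega
  have a1 := card_hom (c.ind h1)
  have a2 := card_hom (MulAut.conj : E →* MulAut E)
  have a3 : (MulAut.conj : E →* MulAut E).ker = center E := by
    ext x; simp only [MonoidHom.mem_ker, mem_center_iff, MulEquiv.ext_iff, MulAut.conj_apply, MulAut.one_apply,
      mul_inv_eq_iff_eq_mul]
    exact forall_congr' fun _ => eq_comm
  have a4 : Nat.card (center E) = 2 := by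
    rw [h1, Nat.card_zpowers]
    exact orderOf_eq_prime (c.ζ_pow 1) fun e => absurd (c.ζ_eq_one.1 e) (by decide)
  rw [a3, a4, hc] at a2
  rw [c.ker_ind h1, MonoidHom.range_eq_top.2 (c.ind_surj h1), card_top] at a1
  have a5 := R.card_mul_index
  have fr : Module.finrank (ZMod 2) (Fin (2 * (3 + 1)) → ZMod 2) = 8 := by simp
  rw [hR, a1, show Nat.card (Inn E) = 256 by change Nat.card (MulAut.conj : E →* MulAut E).range = 256; omega] at a5
  rcases h5 with ⟨rfl, -⟩ | ⟨rfl, -⟩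
  swap
  · rw [h3.card_isom_minus h2 fr, Nat.card_zmod] at a5
    simp [Finset.prod_range_succ] at a5
    omega
  rw [h3.card_isom_plus h2 fr, Nat.card_zmod] at a5
  obtain ⟨e, he⟩ := h3.equivalent_plus h2 fr
  have hq : ∀ v, c.q (e.symm v) = quadFormPlus 4 (ZMod 2) v := fun v => by
    have := he.Q_eq (e.symm v)
    rw [e.apply_symm_apply] at this
    exact this.symm
  refine ⟨by simp [Finset.prod_range_succ] at a5; omega, fun k => c.s (e.symm (vv k)), c.ζ 1, h1,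
    fun k hk => ?_, fun k hk l hl => ?_⟩
  · rw [← sq, ← c.ζ_q, c.π_s, hq, (k_vv k hk).1]
  · have := c.q_add (e.symm (vv k)) (e.symm (vv l))
    rw [← map_add, hq, hq, hq, (k_vv k hk).1, (k_vv l hl).1, (k_vv k hk).2 l hl,
      show (1 : ZMod 2) + 1 = 0 from rfl, zero_add] at this
    rw [← c.ζ_b, c.π_s, c.π_s, ← this]
    split_ifs
    exacts [rfl, c.ζ_zero]

variable {G : Type u} [Group G]

theorem rels_of {g : ℕ → G} {z : G} (hz : z * z = 1) (h1 : ∀ k < 8, g k * g k = z)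
    (h2 : ∀ k < 8, ∀ l < 8, ⁅g k, g l⁆ = if k / 2 = l / 2 ∧ k ≠ l then z else 1) :
    ∀ r ∈ rels, ev g r = 1 := by
  have a : ∀ k < 8, ∀ l < 8, k / 2 ≠ l / 2 → g k * (g l * ((g k)⁻¹ * ((g l)⁻¹ * 1))) = 1 := fun k hk l hl e => by
    have := h2 k hk l hl
    rw [if_neg (by omega), commutatorElement_def] at this
    simpa only [mul_assoc, mul_one] using this
  have b : ∀ k < 8, g 0 * (g 0 * ((g k)⁻¹ * ((g k)⁻¹ * 1))) = 1 := fun k hk => by
    rw [← mul_assoc, h1 0 (by omega), ← h1 k hk]; group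
  have c : ∀ k < 8, ∀ l < 8, k / 2 = l / 2 ∧ k ≠ l → g k * (g l * ((g k)⁻¹ * (g l * 1))) = 1 := fun k hk l hl e => by
    have := h2 k hk l hl
    rw [if_pos e, commutatorElement_def] at this
    calc _ = g k * g l * (g k)⁻¹ * (g l)⁻¹ * (g l * g l) := by group
      _ = 1 := by rw [this, h1 l hl, hz]
  have o : ∀ k, lv g (2 * k + 1) = (g k)⁻¹ := fun k => by rw [lv, if_neg (by omega), show (2 * k + 1) / 2 = k by omega]
  intro r hr
  rcases (by decide +kernel : ∀ r ∈ rels, r = [0,0,0,0] ∨ ∃ k < 8, r = [0, 0, 2 * k + 1, 2 * k + 1] ∨ ∃ l < 8,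
    (k / 2 ≠ l / 2 ∧ r = [2 * k, 2 * l, 2 * k + 1, 2 * l + 1]) ∨
    ((k / 2 = l / 2 ∧ k ≠ l) ∧ r = [2 * k, 2 * l, 2 * k + 1, 2 * l])) r hr with
    rfl | ⟨k, hk, rfl | ⟨l, hl, ⟨e, rfl⟩ | ⟨e, rfl⟩⟩⟩
  · show g 0 * (g 0 * (g 0 * (g 0 * 1))) = 1
    rw [← mul_assoc, mul_one, h1 0 (by omega), hz]
  · simp only [ev_cons, o]; exact b k hk
  · simp only [ev_cons, o, lv_even]; exact a k hk l hl e
  · simp only [ev_cons, o, lv_even]; exact c k hk l hl e

theorem exists_aut [Finite G] {g g' : ℕ → G} {Q : Subgroup G} (M : Md g key El Q) (M' : Md g' key El Q) :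
    ∃ α : MulAut Q, ∀ w, α ⟨ev g w, M.mem w⟩ = ⟨ev g' w, M'.mem w⟩ := by
  choose W _ hW using fun x : Q => M.all x x.2
  have h : ∀ w, ev g' (W ⟨ev g w, M.mem w⟩) = ev g' w := fun w => (M'.eq _ _).2 ((M.eq _ _).1 (hW _).symm)
  have all : ∀ x : Q, ∃ w, x = ⟨ev g w, M.mem w⟩ := fun x => ⟨W x, Subtype.ext (hW x)⟩
  let f : Q →* Q := MonoidHom.mk' (fun x => ⟨ev g' (W x), M'.mem _⟩) fun x y => by
    obtain ⟨u, rfl⟩ := all x
    obtain ⟨v, rfl⟩ := all y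
    refine Subtype.ext ?_
    have : (⟨ev g u, M.mem u⟩ * ⟨ev g v, M.mem v⟩ : Q) = ⟨ev g (u ++ v), M.mem _⟩ :=
      Subtype.ext (ev_append _ _ _).symm
    rw [this]
    exact (h _).trans ((ev_append _ _ _).trans (congrArg₂ _ (h u).symm (h v).symm))
  refine ⟨MulEquiv.ofBijective f (Finite.injective_iff_bijective.1 fun x y e => ?_), fun w => Subtype.ext (h w)⟩
  exact Subtype.ext (by rw [hW x, hW y, M.eq, ← M'.eq]; exact congrArg Subtype.val e)

/-- the first eight generators -/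
def q8 (γ : ℕ → G) (i : ℕ) : G := if i < 8 then γ i else 1

theorem ev_q8 (γ : ℕ → G) {w : Word} (h : ∀ a ∈ w, a < 2 * 8) : ev (q8 γ) w = ev γ w :=
  ev_congr (fun _ hi => if_pos hi) h

/-- coordinates for the centraliser of `z` -/
structure CQ (γ : ℕ → G) (Q : Subgroup G) (z : G) : Prop where
  md : Md (q8 γ) key El Q
  ez : ev (q8 γ) Z = z
  one : ∀ i, 15 ≤ i → γ i = 1
  act : ∀ i < 15, Act (q8 γ) (γ i) (subst (nth sg [] i))
  cube : ∀ i, 8 ≤ i → γ i ^ 3 = 1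
  ex : EX Q z
  norm : 𝓒₁(z) ≤ 𝓝(Q)
  cent : 𝓒(Q) ≤ Q
  card : ♯𝓒₁(z) = 89181388800
  nwc : ∃ p, p * z * p⁻¹ ∈ Q ∧ p * z * p⁻¹ ≠ z

theorem k_sg : ∀ i < 15, (nth sg [] i).length = 8 ∧ (∀ r ∈ rels, key (subst (nth sg [] i) r) = key []) ∧
    key (subst (nth sg [] i) Z) = key Z ∧ (8 ≤ i → ∀ w ∈ El,
      key (subst (nth sg [] i) (subst (nth sg [] i) (subst (nth sg [] i) w))) = key w) ∧
    (i < 8 → ∀ k < 8, key (inn [2 * i] [2 * k]) = key (nth (nth sg [] i) [] k)) := by decide +kernel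

theorem exists_CQ [Finite G] {Q : Subgroup G} {z : G} (hQ : IsExtraspecial 2 Q) (ex : EX Q z) (h1 : 𝓒₁(z) ≤ 𝓝(Q))
    (h2 : 𝓒(Q) ≤ Q) (hc : ♯Q = 2 ^ 9) (hH : ♯𝓒₁(z) = 89181388800)
    (nwc : ∃ p, p * z * p⁻¹ ∈ Q ∧ p * z * p⁻¹ ≠ z) : ∃ γ, CQ γ Q z := by
  let θ : 𝓒₁(z) →* MulAut Q := Q.normalizerMonoidHom.comp (inclusion h1)
  have hθ : ∀ (h : 𝓒₁(z)) (x : Q), (θ h x : G) = h * x * h⁻¹ := fun _ _ => rfl
  have hZ : ∀ h : G, (∀ x ∈ Q, h * x * h⁻¹ = x) → h ∈ zpowers z := fun h e =>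
    have : h ∈ 𝓒(Q) := mem_cent.2 fun x hx => (mul_inv_eq_iff_eq_mul.1 (e x hx)).symm
    ex.ctr ⟨h2 this, this⟩
  have hk : θ.ker = (zpowers z).subgroupOf 𝓒₁(z) := by
    ext h
    refine ⟨fun e => hZ h fun x hx => ?_, fun e => MulEquiv.ext fun x => Subtype.ext ?_⟩
    · rw [← coe_inv, ← hθ h ⟨x, hx⟩, MonoidHom.mem_ker.1 e]; rfl
    · rw [hθ, coe_inv, ← ex.cz (x := (h : G)) (ex.cent x.2) e]; simp
  have a1 := card_hom θ
  rw [hk, hH, Nat.card_congr (subgroupOfEquivOfLe (ex.le.trans ex.cent)).toEquiv, ex.card] at a1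
  obtain ⟨hi2, g0, ζ, e1, e2, e3⟩ := gens_of hQ hc (R := θ.range) (by omega)
  have e0 : (ζ : G) = z := by
    have := ex.map_center
    rw [e1, MonoidHom.map_zpowers] at this
    refine (ex.mem_iff.1 (this.le (mem_zpowers _))).resolve_left fun e => ex.ne ?_
    obtain ⟨k, hk⟩ := mem_zpowers_iff.1 (this.ge (mem_zpowers _))
    rw [← hk, e, one_zpow]
  set g : ℕ → G := q8 fun i => (g0 i : G) with hg
  have g1 : ∀ i < 8, g i = g0 i := fun i hi => if_pos hi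
  have g2 : ∀ i, 8 ≤ i → g i = 1 := fun i hi => if_neg (by omega)
  have hr := rels_of (g := g) ex.sq (fun k hk => by rw [g1 k hk, ← coe_mul, e2 k hk, e0]) fun k hk l hl => by
    have := congrArg Q.subtype (e3 k hk l hl)
    rw [map_commutatorElement, apply_ite Q.subtype, map_one] at this
    rw [g1 k hk, g1 l hl, ← e0]; exact this
  have ez : ev g Z = z := by
    show g 0 * (g 0 * 1) = z
    rw [mul_one, g1 0 (by omega), ← coe_mul, e2 0 (by omega), e0]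
  have md : ∀ g : ℕ → G, (∀ i, 8 ≤ i → g i = 1) → (∀ r ∈ rels, ev g r = 1) → ev g Z = z → (∀ i, g i ∈ Q) →
      Md g key El Q := fun g a b c d => by
    obtain ⟨M, hM⟩ := reg.md bound a b (c ▸ ex.ne :)
    exact eq_of_le_of_card_ge ((grp_le_iff g).2 fun w _ => ev_mem d w) (hc.trans hM.symm).le ▸ M
  have M := md g g2 hr ez fun i => by
    rcases lt_or_ge i 8 with hi | hi
    exacts [g1 i hi ▸ (g0 i).2, g2 i hi ▸ one_mem _]
  have ex3 : ∀ i, ∃ h : G, (8 ≤ i → i < 15 → Act g h (subst (nth sg [] i))) ∧ h ^ 3 = 1 := fun i => by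
    by_cases hi : 8 ≤ i ∧ i < 15
    swap
    · exact ⟨1, fun a b => absurd ⟨a, b⟩ hi, one_pow 3⟩
    obtain ⟨k1, k2, k3, k4, -⟩ := k_sg i hi.2
    generalize nth sg [] i = σ at *
    obtain ⟨α, hα⟩ := exists_aut M (md (fun i => ev g (nth σ [] i))
      (fun i hi => by rw [nth_eq_getD, List.getD_eq_default _ _ (by omega)]; rfl)
      (fun r hr => (ev_subst _ _ _).symm.trans ((M.eq _ []).2 (k2 r hr)))
      ((ev_subst _ _ _).symm.trans (((M.eq _ _).2 k3).trans ez)) fun _ => M.mem _)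
    simp only [← ev_subst] at hα
    have a3 : α * α * α = 1 := MulEquiv.ext fun ⟨x, hx⟩ => by
      obtain ⟨w, hw, rfl⟩ := M.all x hx
      rw [MulAut.mul_apply, MulAut.mul_apply, hα, hα, hα]
      exact Subtype.ext ((M.eq _ _).2 (k4 hi.1 w hw))
    obtain ⟨h, hh⟩ : α ∈ θ.range := by
      have := mul_self_mem_of_index_two hi2 (α * α)
      rwa [← mul_assoc, a3, one_mul] at this
    have a4 : (h : G) ^ 3 ∈ zpowers z := hZ _ fun x hx => by
      have := hθ (h * h * h) ⟨x, hx⟩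
      rw [map_mul, map_mul, hh, a3] at this
      rw [pow_three']; exact this.symm
    refine ⟨h * h ^ 3, fun _ _ w => ?_, ?_⟩
    · have := hθ h ⟨_, M.mem w⟩
      rw [hh, hα] at this
      rw [show ev g (subst σ w) = _ from this, mul_inv_rev, mul_assoc, mul_assoc, ← mul_assoc _ _⁻¹,
        ← mul_assoc (_ ^ 3), ← mul_assoc (_ ^ 3), ← ex.cz (ex.cent (M.mem w)) a4]
      simp [mul_assoc]
    · rw [← pow_succ', ← pow_mul, show (3 + 1) * 3 = 3 * 2 ^ 2 from rfl, pow_mul, ex.pow4 (ex.le a4)]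
  choose x x1 x2 using ex3
  have eq : q8 (fun i => if i < 8 then g i else if i < 15 then x i else 1) = g := funext fun i => by
    by_cases hi : i < 8
    · simp only [q8, if_pos hi]
    · simp only [q8, if_neg hi, g2 i (by omega)]
  refine ⟨fun i => if i < 8 then g i else if i < 15 then x i else 1, eq.symm ▸ M, eq.symm ▸ ez,
    fun i hi => by rw [if_neg (by omega), if_neg (by omega)], fun i hi => ?_, fun i hi => ?_, ex, h1, h2, hH, nwc⟩
  · rw [eq]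
    by_cases h6 : i < 8
    · rw [if_pos h6]
      refine conj_ev fun k => ?_
      rcases lt_or_ge k 8 with hk | hk
      · rw [← ev_gen g i, ← ev_gen g k, act_inn, M.eq]
        exact (k_sg i hi).2.2.2.2 h6 k hk
      · rw [g2 k hk, nth_eq_getD, List.getD_eq_default _ _ ((k_sg i hi).1 ▸ hk)]; simp [ev]
    · rw [if_neg h6, if_pos hi]; exact x1 i (by omega) hi
  · rw [if_neg (by omega)]; split_ifs
    exacts [x2 i, one_pow 3]

theorem of_hyp [Finite G] {z : G} (hz : orderOf z = 2) {Q : Subgroup 𝓒₁(z)} [Q.Normal]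
    (hF : generalizedFittingSubgroup 𝓒₁(z) = Q) (hQ : IsExtraspecial 2 Q) (hc : ♯Q = 2 ^ 9)
    (e : 𝓒₁(z) ⧸ Q ≃* Omega (ZMod 2) (quadFormPlus 4 (ZMod 2)))
    (h1 : ∃ g : G, (∃ hq : g * z * g⁻¹ ∈ 𝓒₁(z), (⟨g * z * g⁻¹, hq⟩ : 𝓒₁(z)) ∈ Q) ∧ g * z * g⁻¹ ≠ z) :
    ∃ γ, CQ γ (Q.map 𝓒₁(z).subtype) z := by
  have h2 : 𝓒(Q) ≤ Q := hF ▸ Fstar.centralizer_fstar_le
  have h3 : 𝓒(Q.map 𝓒₁(z).subtype) ⊓ 𝓒₁(z) ≤ Q.map 𝓒₁(z).subtype := fun g hg =>
    ⟨⟨g, hg.2⟩, h2 (mem_cent.2 fun a ha => Subtype.ext (mem_cent.1 hg.1 _ (mem_map_of_mem _ ha))), rfl⟩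
  have h4 := le_cent1_iff.1 (map_subtype_le Q)
  have h5 := h3 ⟨h4, mem_cent1_self z⟩
  have hQ' := CA.H6Qd.isExtraspecial_congr (Q.equivMapOfInjective _ 𝓒₁(z).subtype_injective) hQ
  obtain ⟨g, ⟨hq, h6⟩, h7⟩ := h1
  refine exists_CQ hQ' (EX.of_mem hQ' ⟨h5, h4⟩ (ne_one_of_ord hz)) ?_ (fun g hg => h3 ⟨hg, cent_le_cent1 h5 hg⟩)
    ((card_map_of_injective 𝓒₁(z).subtype_injective).trans hc)
    (by rw [card_eq_card_quotient_mul_card_subgroup Q, Nat.card_congr e.toEquiv, card_om, hc]; rfl)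
    ⟨g, ⟨_, h6, rfl⟩, h7⟩
  simpa only [normalizer_eq_top, ← MonoidHom.range_eq_map, range_subtype] using
    le_normalizer_map (H := Q) 𝓒₁(z).subtype

end CA.CoA
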