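import Mathlib

/-! Weight spaces of elementary abelian 3-groups on quadratic spaces over the field with two elements. -/

set_option autoImplicit false
set_option linter.all false

namespace CA.F24

variable {Γ V : Type*} [Group Γ] [AddCommGroup V] [DistribMulAction Γ V]

variable (Γ) in
/-- an invariant nondegenerate quadratic form -/
structure QF (q : V → ZMod 2) (b : V → V → ZMod 2) : Prop where
  add : ∀ u v, q (u + v) = q u + q v + b u v
  badd : ∀ u v w, b u (v + w) = b u v + b u w
  symm : ∀ u v, b u v = b v u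
  two : ∀ v : V, v + v = 0
  nd : ∀ u, (∀ v, b u v = 0) → u = 0
  inv : ∀ (g : Γ) v, q (g • v) = q v

def W1 (y : Γ) (v : V) : Prop := v + y • v + y • y • v = 0

def pw (y : Γ) (k : ZMod 3) : Γ := y ^ k.val

theorem pw_add {y : Γ} (hy : y ^ 3 = 1) (k l : ZMod 3) : pw y (k + l) = pw y k * pw y l := by
  rw [pw, pw, pw, ← pow_add, ZMod.val_add, ← pow_eq_pow_mod _ hy]

theorem pw_zero (y : Γ) : pw y 0 = 1 := pow_zero y
theorem pw_one (y : Γ) : pw y 1 = y := pow_one y
theorem pw_two (y : Γ) : pw y 2 = y * y := pow_two y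
theorem z3 : ∀ k : ZMod 3, k = 0 ∨ k = 1 ∨ k = 2 := by decide

theorem cube {y : Γ} (hy : y ^ 3 = 1) (v : V) : y • y • y • v = v := by
  rw [smul_smul, smul_smul, ← pow_three', hy, one_smul]

theorem W1.smul {y g : Γ} {v : V} (h : W1 y v) (hg : g * y = y * g) : W1 y (g • v) := by
  have e : ∀ v : V, y • g • v = g • y • v := fun v => by rw [smul_smul, smul_smul, hg]
  unfold W1 at *
  rw [e, e, ← smul_add, ← smul_add, h, smul_zero]

variable {ι : Type*}

def Wt (y : Γ) (t : ι → Γ) (s : Set ι) (l : ι → ZMod 3) : AddSubgroup V where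
  carrier := {v | W1 y v ∧ ∀ i ∈ s, t i • v = pw y (l i) • v}
  add_mem' := fun {u v} hu hv => ⟨by
    have := congrArg₂ (· + ·) hu.1 hv.1
    simp only [W1, smul_add, add_zero] at this ⊢
    rw [← this]; abel, fun i hi => by rw [smul_add, smul_add, hu.2 i hi, hv.2 i hi]⟩
  zero_mem' := ⟨by simp [W1], by simp⟩
  neg_mem' := fun {u} hu => ⟨by
    have := congrArg Neg.neg hu.1
    simp only [W1, smul_neg, neg_zero] at this ⊢
    rw [← this]; abel, fun i hi => by rw [smul_neg, smul_neg, hu.2 i hi]⟩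

theorem Wt_smul {y g : Γ} {t : ι → Γ} {s : Set ι} {l : ι → ZMod 3} {v : V} (h : v ∈ Wt y t s l)
    (hg : g * y = y * g) (ht : ∀ i, g * t i = t i * g) : g • v ∈ Wt y t s l :=
  ⟨h.1.smul hg, fun i hi => by
    rw [smul_smul, ← ht, mul_smul, h.2 i hi, smul_smul, smul_smul, pw, (Commute.pow_right hg _).eq]⟩

/-- the hypotheses on the family -/
structure Fam (y : Γ) (t : ι → Γ) : Prop where
  y3 : y ^ 3 = 1
  t3 : ∀ i, t i ^ 3 = 1
  ty : ∀ i, t i * y = y * t i
  tt : ∀ i j, t i * t j = t j * t i

variable {q : V → ZMod 2} {b : V → V → ZMod 2} {y : Γ} {t : ι → Γ}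

theorem Fam.span (F : Fam y t) (two : ∀ v : V, v + v = 0) (s : Finset ι) {v : V} (hv : W1 y v) :
    v ∈ ⨆ l, Wt (V := V) y t s l := by
  classical
  induction s using Finset.induction_on with
  | empty => exact AddSubgroup.mem_iSup_of_mem 0 ⟨hv, by simp⟩
  | insert i s hi ih =>
    refine (iSup_le fun l v hv => ?_ : _ ≤ ⨆ l, Wt (V := V) y t (insert i s : Finset ι) l) ih
    have e : ∀ v : V, t i • y • v = y • t i • v := fun v => by rw [smul_smul, smul_smul, F.ty]
    have m : ∀ (k : ZMod 3) (w : V), w ∈ Wt y t s l → t i • w = pw y k • w →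
        w ∈ ⨆ l, Wt (V := V) y t (insert i s : Finset ι) l := fun k w hw h =>
      AddSubgroup.mem_iSup_of_mem (Function.update l i k) ⟨hw.1, fun j hj => by
        rcases eq_or_ne j i with rfl | hn
        · rw [Function.update_self, h]
        · rw [Function.update_of_ne hn]
          exact hw.2 j (by simpa [hn] using hj)⟩
    have a1 := Wt_smul hv (F.ty i) (F.tt i)
    have a2 := Wt_smul a1 (F.ty i) (F.tt i)
    have y1 : ∀ w : V, w ∈ Wt y t s l → y • w ∈ Wt y t s l := fun w hw => Wt_smul hw rfl fun j => (F.ty j).symm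
    have := add_mem (add_mem (m 0 (v + t i • v + t i • t i • v) (add_mem (add_mem hv a1) a2) ?_)
      (m 1 (v + y • y • t i • v + y • t i • t i • v) (add_mem (add_mem hv (y1 _ (y1 _ a1))) (y1 _ a2)) ?_))
      (m 2 (v + y • t i • v + y • y • t i • t i • v) (add_mem (add_mem hv (y1 _ a1)) (y1 _ (y1 _ a2))) ?_)
    · convert this using 1
      have h1 := a1.1
      have h2 := a2.1
      unfold W1 at h1 h2
      calc v = v + (v + v) + (t i • v + y • t i • v + y • y • t i • v) +
          (t i • t i • v + y • t i • t i • v + y • y • t i • t i • v) := by rw [two, h1, h2]; simp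
        _ = _ := by abel
    · simp only [pw_zero, one_smul, smul_add, cube (F.t3 i)]; abel
    · simp only [pw_one, smul_add, e, cube (F.t3 i), cube F.y3]; abel
    · simp only [pw_two, mul_smul, smul_add, e, cube (F.t3 i), cube F.y3]; abel

namespace QF
variable (h : QF Γ q b)
include h

theorem b_zero (u : V) : b u 0 = 0 := by simpa using h.badd u 0 0
theorem q_zero : q 0 = 0 := by simpa [h.b_zero] using h.add 0 0
theorem badd' (u v w : V) : b (u + v) w = b u w + b v w := by rw [h.symm, h.badd, h.symm w, h.symm w]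
theorem binv (g : Γ) (u v : V) : b (g • u) (g • v) = b u v := by
  have := h.add (g • u) (g • v)
  rw [← smul_add, h.inv, h.inv, h.inv, h.add] at this
  exact (add_left_cancel this).symm
theorem b_sum {κ : Type*} (s : Finset κ) (u : V) (f : κ → V) : b u (∑ i ∈ s, f i) = ∑ i ∈ s, b u (f i) :=
  map_sum (AddMonoidHom.mk' (b u) (h.badd u)) f s
theorem b_self (u : V) : b u u = 0 := by
  have := h.add u u
  rw [h.two, h.q_zero, CharTwo.add_self_eq_zero, zero_add] at this
  exact this.symm

theorem three {u w : V} (hw : W1 y w) (h1 : b u (y • w) = b u w) (h2 : b u (y • y • w) = b u w) : b u w = 0 := by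
  have := congrArg (b u) hw
  rwa [h.badd, h.badd, h1, h2, h.b_zero, CharTwo.add_self_eq_zero, zero_add] at this

theorem orth (F : Fam y t) {l m : ι → ZMod 3} (hn : l ≠ m) {v w : V} (hv : v ∈ Wt y t Set.univ l)
    (hw : w ∈ Wt y t Set.univ m) : b v w = 0 := by
  obtain ⟨i, hi⟩ := Function.ne_iff.1 hn
  have y1 : ∀ w : V, w ∈ Wt y t Set.univ m → y • w ∈ Wt y t Set.univ m :=
    fun w hw => Wt_smul hw rfl fun j => (F.ty j).symm
  have e : ∀ w : V, w ∈ Wt y t Set.univ m → b v (pw y (m i - l i) • w) = b v w := fun w hw => by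
    rw [← h.binv (t i) v w, hv.2 i trivial, hw.2 i trivial, ← h.binv (pw y (l i)), smul_smul, ← pw_add F.y3,
      add_sub_cancel]
  rcases z3 (m i - l i) with e1 | e1 | e1
  · exact absurd (sub_eq_zero.1 e1).symm hi
  · simp only [e1, pw_one] at e
    exact h.three hw.1 (e w hw) ((e _ (y1 w hw)).trans (e w hw))
  · simp only [e1, pw_two, mul_smul] at e
    refine h.three hw.1 ?_ (e w hw)
    have := e _ (y1 _ (y1 w hw))
    rw [cube F.y3] at this
    exact this.trans (e w hw)

theorem nd1 [Fintype ι] (F : Fam y t) {u : V} (hu : W1 y u)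
    (h1 : ∀ l, ∀ w ∈ Wt y t Set.univ l, b u w = 0) : u = 0 := by
  refine h.nd u fun v => ?_
  have a1 : W1 y (y • v + y • y • v) := by
    simp only [W1, smul_add, cube F.y3]
    calc _ = (v + v) + (y • v + y • v) + (y • y • v + y • y • v) := by abel
      _ = 0 := by simp [h.two]
  have a2 : y • (v + y • v + y • y • v) = v + y • v + y • y • v := by
    simp only [smul_add, cube F.y3]; abel
  have a3 : b u (y • v + y • y • v) = 0 := by
    have := F.span h.two Finset.univ a1
    rw [Finset.coe_univ] at this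
    exact (iSup_le fun l w hw => h1 l w hw : _ ≤ (AddMonoidHom.mk' (b u) (h.badd u)).ker) this
  have key : ∀ u', b (v + y • v + y • y • v) (y • u') = b (v + y • v + y • y • v) u' := fun u' =>
    (congrArg (b · (y • u')) a2.symm).trans (h.binv y _ _)
  have a4 : b (v + y • v + y • y • v) u = 0 := h.three hu (key _) ((key _).trans (key _))
  calc b u v = b u (v + y • v + y • y • v + (y • v + y • y • v)) := by
        rw [add_assoc v, add_assoc v, h.two, add_zero]
    _ = 0 := by rw [h.badd, a3, h.symm, a4, add_zero]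

theorem indep [Fintype ι] (F : Fam y t) {κ : Type*} [Fintype κ] {l : κ → ι → ZMod 3} (hl : Function.Injective l)
    {d : κ → V} (hd : ∀ k, d k ∈ Wt y t Set.univ (l k)) (h0 : ∑ k, d k = 0) (k : κ) : d k = 0 := by
  classical
  refine h.nd1 F (hd k).1 fun m w hw => ?_
  by_cases e : l k = m
  · subst e
    have := congrArg (b w) h0
    rw [h.b_sum, h.b_zero, Finset.sum_eq_single k (fun j _ hj => h.orth F (hl.ne hj.symm) hw (hd j)) (by simp)] at this
    rwa [h.symm]
  · exact h.orth F e (hd k) hw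

theorem pw_inj (hy : y ^ 3 = 1) {w : V} (hw : W1 y w) (h0 : w ≠ 0) {k l : ZMod 3} (e : pw y k • w = pw y l • w) :
    k = l := by
  have a : y • w ≠ w := fun e => h0 (by
    have := hw
    rwa [W1, e, e, h.two, zero_add] at this)
  have e' : pw y (k - l) • w = w := by
    rw [← smul_left_cancel_iff (pw y l), smul_smul, ← pw_add hy, add_sub_cancel, e]
  rcases z3 (k - l) with e1 | e1 | e1
  · exact sub_eq_zero.1 e1
  · exact absurd (by rwa [e1, pw_one] at e') a
  · rw [e1, pw_two, mul_smul] at e'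
    exact absurd (by rw [← e', cube hy, e']) a
end QF

/-- scalars -/
def sc (y : Γ) (c : Option (ZMod 3)) (w : V) : V := c.elim 0 fun k => pw y k • w

theorem sc_mem (F : Fam y t) {l : ι → ZMod 3} {w : V} (hw : w ∈ Wt y t Set.univ l) (c : Option (ZMod 3)) :
    sc y c w ∈ Wt y t Set.univ l := by
  cases c with
  | none => exact zero_mem _
  | some k => exact Wt_smul hw (Commute.pow_left rfl _).eq fun i => (Commute.pow_left (F.ty i).symm _).eq

theorem QF.sc_inj (h : QF Γ q b) (hy : y ^ 3 = 1) {w : V} (hw : W1 y w) (h0 : w ≠ 0) :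
    Function.Injective (sc y · w) := by
  rintro (_ | k) (_ | l) e
  · rfl
  · exact absurd ((smul_eq_zero_iff_eq _).1 (Eq.symm e)) h0
  · exact absurd ((smul_eq_zero_iff_eq _).1 e) h0
  · exact congrArg _ (h.pw_inj hy hw h0 e)

theorem QF.phi_inj (h : QF Γ q b) [Fintype ι] (F : Fam y t) {κ : Type*} [Fintype κ] {l : κ → ι → ZMod 3}
    (hl : Function.Injective l) {w : κ → V} (hw : ∀ k, w k ∈ Wt y t Set.univ (l k)) (h0 : ∀ k, w k ≠ 0) :
    Function.Injective fun c : κ → Option (ZMod 3) => ∑ k, sc y (c k) (w k) := fun c c' e => funext fun k =>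
  h.sc_inj F.y3 (hw k).1 (h0 k) (sub_eq_zero.1 (h.indep F hl (d := fun k => sc y (c k) (w k) - sc y (c' k) (w k))
    (fun k => sub_mem (sc_mem F (hw k) _) (sc_mem F (hw k) _))
    (by rw [Finset.sum_sub_distrib]; exact sub_eq_zero.2 e) k))

theorem QF.card_le (h : QF Γ q b) [Finite V] [Fintype ι] (F : Fam y t) {κ : Type*} [Fintype κ]
    {l : κ → ι → ZMod 3} (hl : Function.Injective l) {w : κ → V} (hw : ∀ k, w k ∈ Wt y t Set.univ (l k))
    (h0 : ∀ k, w k ≠ 0) : 4 ^ Fintype.card κ ≤ Nat.card V := by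
  classical
  have := Nat.card_le_card_of_injective _ (h.phi_inj F hl hw h0)
  simpa using this

/-- Gauss sum on an invariant nondegenerate subspace -/
theorem QF.gauss (h : QF Γ q b) [Finite V] (W : AddSubgroup V) (hW : ∀ u ∈ W, (∀ v ∈ W, b u v = 0) → u = 0) :
    (2 * (Nat.card {v : W // q v = 0} : ℤ) - Nat.card W) ^ 2 = Nat.card W := by
  classical
  haveI := Fintype.ofFinite W
  let χ : ZMod 2 → ℤ := fun a => if a = 0 then 1 else -1
  have χa : ∀ a c, χ (a + c) = χ a * χ c := by decide
  have e1 : ∑ v : W, χ (q v) = 2 * (Nat.card {v : W // q v = 0} : ℤ) - Nat.card W := by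
    have : ∀ v : W, χ (q v) = 2 * (if q v = 0 then 1 else 0) - 1 := fun v => by
      simp only [χ]; split_ifs <;> rfl
    simp only [this, Finset.sum_sub_distrib, ← Finset.mul_sum, Finset.sum_boole, Finset.sum_const, Finset.card_univ,
      Nat.card_eq_fintype_card, Fintype.card_subtype]
    simp
  have e2 : ∀ u : W, u ≠ 0 → ∑ v : W, χ (b u v) = 0 := fun u hu => by
    obtain ⟨w, hw, h1⟩ : ∃ w ∈ W, b u w ≠ 0 := by
      by_contra! hc; exact hu (Subtype.ext (hW u u.2 hc))
    have := Equiv.sum_comp (Equiv.addRight (⟨w, hw⟩ : W)) fun v : W => χ (b u v)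
    simp only [Equiv.coe_addRight, AddSubgroup.coe_add, h.badd, χa, ← Finset.sum_mul] at this
    rw [show χ (b u w) = -1 from if_neg h1] at this
    linarith
  rw [← e1, sq, Finset.sum_mul_sum]
  calc _ = ∑ v : W, ∑ u : W, χ (q u) * χ (b u v) := Finset.sum_congr rfl fun v _ => by
        rw [← Equiv.sum_comp (Equiv.addRight v)]
        refine Finset.sum_congr rfl fun u _ => ?_
        simp only [Equiv.coe_addRight, AddSubgroup.coe_add, h.add, ← χa]
        congr 1
        generalize q v = a, q u = c, b u v = d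
        revert a c d; decide
    _ = ∑ u : W, χ (q u) * ∑ v : W, χ (b u v) := by rw [Finset.sum_comm]; simp only [Finset.mul_sum]
    _ = _ := by
        rw [Finset.sum_eq_single 0 (fun u _ hu => by rw [e2 u hu, mul_zero]) (by simp)]
        simp [h.q_zero, χ, h.symm 0, h.b_zero]

end CA.F24
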