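import Cfsg.Agent.Lib.Lin.Phan0
import Cfsg.Agent.Lib.Lin.SmallF

/-! A semilinear group on `F₄⁶` fixing an isotropic vector: the action on `v^⊥/v`. -/

set_option autoImplicit false
set_option linter.all false

namespace CA.F24U

open Matrix Cfsg CA.Phan CA.SmallF

abbrev X := Fin 6 → F4
abbrev h (u v : X) : F4 := hermForm 6 F4 2 u v
def v0 : X := ![1, 1, 0, 0, 0, 0]
def e0 : X := ![1, 0, 0, 0, 0, 0]
def pj (y : X) : Fin 4 → F4 := ![y 2, y 3, y 4, y 5]
def em (u : Fin 4 → F4) : X := ![0, 0, u 0, u 1, u 2, u 3]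

theorem sq_add : ∀ a b : F4, (a + b) ^ 2 = a ^ 2 + b ^ 2 := by decide +kernel
theorem two0 : (2 : F4) = 0 := by decide +kernel
theorem aa : ∀ a : F4, a + a = 0 := by decide +kernel
theorem p4 : ∀ a : F4, (a ^ 2) ^ 2 = a := by decide +kernel
theorem h_eq (u v : X) : h u v = u 0 * v 0 ^ 2 + u 1 * v 1 ^ 2 + u 2 * v 2 ^ 2 + u 3 * v 3 ^ 2 + u 4 * v 4 ^ 2 +
    u 5 * v 5 ^ 2 := by simp only [h, hermForm, Fin.sum_univ_six]
theorem h_add (u v : X) : h (u + v) (u + v) = h u u + h v v + (h u v + h u v ^ 2) := by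
  simp only [h_eq, Pi.add_apply, sq_add, mul_pow, p4]; ring
theorem h_smul (c : F4) (u v : X) : h (c • u) v = c * h u v := by
  simp only [h_eq, Pi.smul_apply, smul_eq_mul]; ring
theorem h_v (y : X) : h y v0 = y 0 + y 1 := by simp [h_eq, v0]
theorem h_pj {y y' : X} (e : y 0 = y 1) (e' : y' 0 = y' 1) : hermForm 4 F4 2 (pj y) (pj y') = h y y' := by
  simp only [h_eq, hermForm, Fin.sum_univ_four, pj, e, e', aa, zero_add]; rfl
theorem pj_em (u : Fin 4 → F4) : pj (em u) = u := by funext i; fin_cases i <;> rfl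
theorem dec {y : X} (e : y 0 = y 1) : y = y 0 • v0 + em (pj y) := by
  funext i; fin_cases i <;> simp [v0, em, pj, e]

theorem iso_of {M S : Type*} [Group M] [Group S] [Finite M] [IsSimpleGroup S] (f : M →* S) (a1 : Nat.card f.ker ≤ 3)
    (h1 : Nat.card M = 25920) (h2 : Nat.card S = 25920) : Nonempty (M ≃* S) := by
  haveI : Finite S := Nat.finite_of_card_ne_zero (by omega)
  have a2 := f.ker.card_mul_index
  have a3 := f.range.card_mul_index
  rw [Subgroup.index_ker, h1] at a2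
  rw [h2] at a3
  have a4 : f.range.index ≤ 3 := by
    by_contra! hn
    have : 0 < Nat.card f.range := Nat.card_pos
    nlinarith
  have hc : f.range.normalCore = ⊤ :=
    (IsSimpleGroup.eq_bot_or_eq_top_of_normal f.range.normalCore inferInstance).resolve_left fun e => by
      rw [Subgroup.normalCore_eq_ker, MonoidHom.ker_eq_bot_iff] at e
      have := Nat.card_le_card_of_injective _ e
      rw [h2, Nat.card_perm] at this
      exact absurd (this.trans (Nat.factorial_le a4)) (by decide)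
  exact ⟨MulEquiv.ofBijective f ((Nat.bijective_iff_surjective_and_card _).2
    ⟨MonoidHom.range_eq_top.1 (top_le_iff.1 (hc.ge.trans f.range.normalCore_le)), h1.trans h2.symm⟩)⟩

structure Dt {Γ : Type*} [Group Γ] (M : Subgroup Γ) (a : Γ → X → X) : Prop where
  add : ∀ g y y', a g (y + y') = a g y + a g y'
  mul : ∀ g g' y, a (g * g') y = a g (a g' y)
  one : ∀ y, a 1 y = y
  faith : ∀ g ∈ M, (∀ y, a g y = y) → g = 1
  lin : ∀ g ∈ M, ∀ y, a g (om • y) = om • a g y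
  semi : ∀ g ∉ M, ∀ y, a g (om • y) = (om + 1) • a g y
  nq : ∀ g y, h (a g y) (a g y) = h y y
  fix : ∀ g, a g v0 = v0
  tor : ∀ (k : Fin 6) (f : X), (∀ i, f i ^ 3 = 1) → f 0 = 1 → f 1 = 1 → 2 ≤ k →
    ∃ t ∈ M, ∃ s : F4, s ^ 3 = 1 ∧ ∀ y, a t y = Function.update f k s * y
  c5 : ∃ u ∈ M, ∀ g ∈ M, u * g = g * u → g * g = 1 → g = 1

variable {Γ : Type*} [Group Γ] {M : Subgroup Γ} {a : Γ → X → X}

namespace Dt
variable (D : Dt M a)
include D

theorem zero (g : Γ) : a g 0 = 0 := by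
  have := D.add g 0 0
  rw [add_zero] at this
  exact (left_eq_add.1 this)

theorem smul {g : Γ} (hg : g ∈ M) (c : F4) (y : X) : a g (c • y) = c • a g y := by
  rcases (by decide +kernel : ∀ c : F4, c = 0 ∨ c = 1 ∨ c = om ∨ c = om + 1) c with rfl | rfl | rfl | rfl
  · rw [zero_smul, zero_smul, D.zero]
  · rw [one_smul, one_smul]
  · exact D.lin g hg y
  · rw [add_smul, add_smul, one_smul, one_smul, D.add, D.lin g hg]

theorem hh {g : Γ} (hg : g ∈ M) (u v : X) : h (a g u) (a g v) = h u v := by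
  have k : ∀ u, h (a g u) (a g v) + h (a g u) (a g v) ^ 2 = h u v + h u v ^ 2 := fun u => by
    have := D.nq g (u + v)
    rw [D.add, h_add, h_add, D.nq, D.nq] at this
    exact add_left_cancel this
  have k1 := k u
  have k2 := k (om • u)
  rw [D.lin g hg, h_smul, h_smul] at k2
  revert k1 k2
  generalize h (a g u) (a g v) = r; generalize h u v = s
  revert r s; decide +kernel

theorem perp {g : Γ} (hg : g ∈ M) (y : X) : a g y 0 + a g y 1 = y 0 + y 1 := by
  rw [← h_v, ← h_v, ← D.hh hg y, D.fix]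

theorem perp' {g : Γ} (hg : g ∈ M) {y : X} (e : y 0 = y 1) : a g y 0 = a g y 1 := by
  have := D.perp hg y
  rw [e, aa] at this
  revert this; generalize a g y 0 = r; generalize a g y 1 = s; revert r s; decide +kernel

def L (g : M) : (Fin 4 → F4) →ₗ[F4] (Fin 4 → F4) where
  toFun u := pj (a g (em u))
  map_add' u u' := by
    rw [show em (u + u') = em u + em u' by funext i; fin_cases i <;> simp [em], D.add]
    funext i; fin_cases i <;> rfl
  map_smul' c u := by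
    rw [show em (c • u) = c • em u by funext i; fin_cases i <;> simp [em], D.smul g.2]
    funext i; fin_cases i <;> rfl

noncomputable def θ (g : M) : Matrix (Fin 4) (Fin 4) F4 := LinearMap.toMatrix' (D.L g)

theorem θ_pj (g : M) {y : X} (e : y 0 = y 1) : D.θ g *ᵥ pj y = pj (a g y) := by
  rw [θ, LinearMap.toMatrix'_mulVec]
  conv_rhs => rw [dec e, D.add, D.smul g.2, D.fix]
  funext i; fin_cases i <;> simp [L, pj, v0]

theorem θ_em (g : M) (u : Fin 4 → F4) : D.θ g *ᵥ u = pj (a g (em u)) := by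
  rw [← D.θ_pj g (y := em u) rfl, pj_em]

noncomputable def θh : M →* Matrix (Fin 4) (Fin 4) F4 where
  toFun := D.θ
  map_one' := Matrix.ext_iff_mulVec.2 fun u => by rw [D.θ_em, Subgroup.coe_one, D.one, pj_em, one_mulVec]
  map_mul' g g' := Matrix.ext_iff_mulVec.2 fun u => by
    rw [← mulVec_mulVec, D.θ_em g', D.θ_pj g (D.perp' g'.2 rfl), D.θ_em, Subgroup.coe_mul, D.mul]

theorem det3 (g : M) : (D.θh g).det ^ 3 = 1 := by
  have : (D.θh g).det * (D.θh g⁻¹).det = 1 := by rw [← det_mul, ← map_mul, mul_inv_cancel, map_one, det_one]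
  revert this; generalize (D.θh g).det = r; generalize (D.θh g⁻¹).det = s; revert r s; decide +kernel

noncomputable def θs : M →* SU 4 F4 2 :=
  MonoidHom.mk' (fun g => ⟨⟨(D.θh g).det ^ 2 • D.θh g, by
      rw [det_smul, Fintype.card_fin, ← pow_mul, ← pow_succ, show 2 * 4 + 1 = 3 * 3 from rfl, pow_mul, D.det3,
        one_pow]⟩, mem_SU.2 fun u u' => by
      have e : hermForm 4 F4 2 (D.θh g *ᵥ u) (D.θh g *ᵥ u') = hermForm 4 F4 2 u u' := by
        change hermForm 4 F4 2 (D.θ g *ᵥ u) (D.θ g *ᵥ u') = _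
        rw [D.θ_em, D.θ_em, h_pj (D.perp' g.2 rfl) (D.perp' g.2 rfl), D.hh g.2, ← h_pj rfl rfl, pj_em, pj_em]
      have d := D.det3 g
      rw [← e]
      simp only [smul_mulVec, hermForm, Fin.sum_univ_four, Pi.smul_apply, smul_eq_mul]
      generalize (D.θh g).det = c at d
      generalize D.θh g *ᵥ u = y; generalize D.θh g *ᵥ u' = y'
      linear_combination (c ^ 3 + 1) * (y 0 * y' 0 ^ 2 + y 1 * y' 1 ^ 2 + y 2 * y' 2 ^ 2 + y 3 * y' 3 ^ 2) * d⟩)
    fun g g' => Subtype.ext (Subtype.ext (by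
      change _ = ((D.θh g).det ^ 2 • D.θh g) * ((D.θh g').det ^ 2 • D.θh g')
      simp only [map_mul, det_mul, mul_pow, Matrix.smul_mul, Matrix.mul_smul, smul_smul, mul_comm]))

theorem one_of {g : Γ} (hg : g ∈ M) (h1 : ∀ y : X, y 0 = y 1 → a g y = y) (h2 : a g e0 = e0) : g = 1 :=
  D.faith g hg fun y => by
    have e : y = (y 0 + y 1) • e0 + (y + (y 0 + y 1) • e0) := by
      rw [add_left_comm, ← add_smul, aa, zero_smul, add_zero]
    rw [e, D.add, D.smul hg, h2, h1 _ (by simp [e0, ← add_assoc, aa])]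

theorem two_of {g : Γ} (hg : g ∈ M) (h1 : ∀ y : X, y 0 = y 1 → a g y = y) : a g e0 = e0 ∨ a g e0 = e0 + v0 := by
  have k : ∀ y : X, y 0 = y 1 → h (a g e0) y = h e0 y := fun y e => by rw [← D.hh hg e0, h1 y e]
  have k2 := k (em ![1, 0, 0, 0]) rfl
  have k3 := k (em ![0, 1, 0, 0]) rfl
  have k4 := k (em ![0, 0, 1, 0]) rfl
  have k5 := k (em ![0, 0, 0, 1]) rfl
  have k0 := D.perp hg e0
  have kn := D.nq g e0
  generalize a g e0 = z at *
  simp [h_eq, em, e0] at k2 k3 k4 k5 k0 kn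
  simp only [k2, k3, k4, k5] at kn
  have : ∀ r s : F4, r + s = 1 → r * r ^ 2 + s * s ^ 2 + 0 * 0 ^ 2 + 0 * 0 ^ 2 + 0 * 0 ^ 2 + 0 * 0 ^ 2 = 1 →
      r = 1 ∧ s = 0 ∨ r = 0 ∧ s = 1 := by decide +kernel
  refine (this _ _ k0 kn).imp (fun e => ?_) fun e => ?_ <;> funext i <;> fin_cases i <;>
    simp [e, e0, v0, k2, k3, k4, k5, aa]

theorem K2 {g : Γ} (hg : g ∈ M) (h1 : ∀ y : X, y 0 = y 1 → a g y = y) : g = 1 := by
  obtain ⟨u, hu, c⟩ := D.c5
  rcases D.two_of hg h1 with e | e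
  · exact D.one_of hg h1 e
  have sw : a g (e0 + v0) = e0 := by
    rw [D.add, e, D.fix, add_assoc, show v0 + v0 = 0 by decide +kernel, add_zero]
  have h2 : ∀ y : X, y 0 = y 1 → a (u * g * u⁻¹) y = y := fun y hy => by
    rw [D.mul, D.mul, h1 _ (D.perp' (inv_mem hu) hy), ← D.mul, mul_inv_cancel, D.one]
  have m := mul_mem (mul_mem hu hg) (inv_mem hu)
  have gg : g * g = 1 := D.one_of (mul_mem hg hg) (fun y hy => by rw [D.mul, h1 y hy, h1 y hy]) (by rw [D.mul, e, sw])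
  rcases D.two_of m h2 with e' | e'
  · simpa using D.one_of m h2 e'
  refine c g hg ?_ gg
  have := D.one_of (mul_mem hg m) (fun y hy => by rw [D.mul, h2 y hy, h1 y hy]) (by rw [D.mul, e', sw])
  rw [← mul_inv_eq_iff_eq_mul, ← inv_eq_of_mul_eq_one_right this, inv_eq_of_mul_eq_one_right gg]

theorem act {g : M} (h1 : D.θh g = 1) {y : X} (e : y 0 = y 1) : a g y = y + h y (a g e0 + e0) • v0 := by
  have e1 : pj (a g y) = pj y := by rw [← D.θ_pj g e]; exact (congrArg (· *ᵥ _) h1).trans (one_mulVec _)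
  have e2 := D.perp' g.2 e
  have e3 := D.hh g.2 y e0
  have e4 := D.perp g.2 e0
  have f2 : a g y 2 = y 2 := congrFun e1 0
  have f3 : a g y 3 = y 3 := congrFun e1 1
  have f4 : a g y 4 = y 4 := congrFun e1 2
  have f5 : a g y 5 = y 5 := congrFun e1 3
  generalize a g y = z at *
  generalize a g e0 = w at *
  have e5 : w 0 ^ 2 + w 1 ^ 2 = 1 := by rw [← sq_add, e4]; simp [e0]
  have : z 1 = y 1 + h y (w + e0) := by
    simp only [h_eq, Pi.add_apply] at e3 ⊢
    simp [e0, e2, e, f2, f3, f4, f5, sq_add] at e3 ⊢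
    linear_combination (exp := 1) e3 - (z 1 + y 1) * e5 + (z 1 - y 1 - z 1 * w 0 ^ 2 - z 1 * w 1 ^ 2 - y 2 * w 2 ^ 2 -
      y 3 * w 3 ^ 2 - y 4 * w 4 ^ 2 - y 5 * w 5 ^ 2 + z 1 * w 0 ^ 2 + z 1 * w 1 ^ 2 - z 1) * two0
  funext i; fin_cases i <;> simp [v0, e2, e, this, f2, f3, f4, f5]

theorem a_add_smul {g : Γ} (hg : g ∈ M) (y : X) (c : F4) : a g (y + c • v0) = a g y + c • v0 := by
  rw [D.add, D.smul hg, D.fix]

theorem al {g : Γ} (hg : g ∈ M) : (a g e0 + e0) 0 = (a g e0 + e0) 1 := by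
  have := D.perp hg e0
  simp only [Pi.add_apply]
  revert this; generalize a g e0 0 = r; generalize a g e0 1 = s; revert r s; decide +kernel

theorem comm {g g' : M} (h1 : D.θh g = 1) (h2 : D.θh g' = 1) :
    h (a g' e0 + e0) (a g e0 + e0) = h (a g e0 + e0) (a g' e0 + e0) := by
  have k : ∀ {g g' : M}, D.θh g = 1 → D.θh g' = 1 → ∀ y : X, y 0 = y 1 →
      a g (a g' y) = y + h y (a g e0 + e0) • v0 + h y (a g' e0 + e0) • v0 := fun h1 h2 y e => by
    rw [D.act h2 e, D.a_add_smul (Subtype.prop _), D.act h1 e]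
  have c := D.K2 (g := ((g' * g)⁻¹ * (g * g') : M)) (Subtype.prop _) fun y e => by
    have : a (g * g' : M) y = a (g' * g : M) y := by
      rw [Subgroup.coe_mul, Subgroup.coe_mul, D.mul, D.mul, k h1 h2 y e, k h2 h1 y e, add_right_comm]
    rw [Subgroup.coe_mul, D.mul, this, ← D.mul, ← Subgroup.coe_mul, inv_mul_cancel, Subgroup.coe_one, D.one]
  have c' : a g (a g' e0) = a g' (a g e0) := by
    rw [Subgroup.coe_mul, Subgroup.coe_inv, inv_mul_eq_one, Subgroup.coe_mul, Subgroup.coe_mul] at c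
    rw [← D.mul, ← D.mul, c]
  have s : ∀ y : X, y = e0 + (y + e0) := fun y => by
    rw [add_left_comm, show e0 + e0 = 0 by decide +kernel, add_zero]
  rw [s (a g' e0), D.add, D.act h1 (D.al g'.2)] at c'
  conv_rhs at c' => rw [s (a g e0), D.add, D.act h2 (D.al g.2)]
  have := congrFun c' 0
  simp only [Pi.add_apply, Pi.smul_apply, smul_eq_mul, show v0 0 = 1 from rfl, mul_one] at this
  linear_combination this + (a g' e0 0 - a g' e0 0) * two0

theorem eqn {g : M} (h1 : D.θh g = 1) {t : Γ} (ht : t ∈ M) {τ : X} (h0 : τ 0 = 1) (h0' : τ 1 = 1)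
    (hτ : ∀ y, a t y = τ * y) : (τ 2 + τ 2 ^ 2) * a g e0 2 ^ 3 + (τ 3 + τ 3 ^ 2) * a g e0 3 ^ 3 +
      (τ 4 + τ 4 ^ 2) * a g e0 4 ^ 3 + (τ 5 + τ 5 ^ 2) * a g e0 5 ^ 3 = 0 := by
  have te : a t e0 = e0 := by rw [hτ]; funext i; fin_cases i <;> simp [e0, h0]
  have ti : a t⁻¹ e0 = e0 := by
    conv_lhs => rw [← te, ← D.mul, inv_mul_cancel, D.one]
  have := D.comm h1 (g' := ⟨t, ht⟩ * g * ⟨t, ht⟩⁻¹) (by rw [map_mul, map_mul, h1, mul_one, ← map_mul]; simp)
  simp only [Subgroup.coe_mul, Subgroup.coe_inv, D.mul, ti, hτ, h_eq, Pi.add_apply, Pi.mul_apply, h0, h0'] at this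
  simp only [show e0 2 = 0 from rfl, show e0 3 = 0 from rfl, show e0 4 = 0 from rfl, show e0 5 = 0 from rfl,
    add_zero, one_mul] at this
  linear_combination this + (τ 2 ^ 2 * a g e0 2 ^ 3 + τ 3 ^ 2 * a g e0 3 ^ 3 + τ 4 ^ 2 * a g e0 4 ^ 3 +
    τ 5 ^ 2 * a g e0 5 ^ 3) * two0

theorem K1 {g : M} (h1 : D.θh g = 1) : g = 1 := by
  obtain ⟨t1, m1, s1, c1, e1⟩ := D.tor 5 ![1, 1, om, 1, 1, 1] (by decide +kernel) rfl rfl (by decide)
  obtain ⟨t2, m2, s2, c2, e2⟩ := D.tor 5 ![1, 1, 1, om, 1, 1] (by decide +kernel) rfl rfl (by decide)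
  obtain ⟨t3, m3, s3, c3, e3⟩ := D.tor 3 ![1, 1, om, 1, 1, 1] (by decide +kernel) rfl rfl (by decide)
  obtain ⟨t4, m4, s4, c4, e4⟩ := D.tor 2 ![1, 1, 1, om, 1, 1] (by decide +kernel) rfl rfl (by decide)
  obtain ⟨t5, m5, s5, c5, e5⟩ := D.tor 2 ![1, 1, 1, 1, om, 1] (by decide +kernel) rfl rfl (by decide)
  obtain ⟨t6, m6, s6, c6, e6⟩ := D.tor 2 ![1, 1, 1, 1, 1, om] (by decide +kernel) rfl rfl (by decide)
  have q1 := D.eqn h1 m1 (τ := ![1, 1, om, 1, 1, s1]) rfl rfl fun y => (e1 y).trans (by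
    congr 1; funext i; fin_cases i <;> rfl)
  have q2 := D.eqn h1 m2 (τ := ![1, 1, 1, om, 1, s2]) rfl rfl fun y => (e2 y).trans (by
    congr 1; funext i; fin_cases i <;> rfl)
  have q12 := D.eqn h1 (mul_mem m1 m2) (τ := ![1, 1, om, om, 1, s1 * s2]) rfl rfl fun y => by
    rw [D.mul, e2, e1, ← mul_assoc]; congr 1; funext i; fin_cases i <;> simp
  have q122 := D.eqn h1 (mul_mem m1 (mul_mem m2 m2)) (τ := ![1, 1, om, om * om, 1, s1 * s2 * s2]) rfl rfl fun y => by
    rw [D.mul, D.mul, e2, e2, e1, ← mul_assoc, ← mul_assoc]; congr 1; funext i; fin_cases i <;> simp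
  have q3 := D.eqn h1 m3 (τ := ![1, 1, om, s3, 1, 1]) rfl rfl fun y => (e3 y).trans (by
    congr 1; funext i; fin_cases i <;> rfl)
  have q4 := D.eqn h1 m4 (τ := ![1, 1, s4, om, 1, 1]) rfl rfl fun y => (e4 y).trans (by
    congr 1; funext i; fin_cases i <;> rfl)
  have q5 := D.eqn h1 m5 (τ := ![1, 1, s5, 1, om, 1]) rfl rfl fun y => (e5 y).trans (by
    congr 1; funext i; fin_cases i <;> rfl)
  have q6 := D.eqn h1 m6 (τ := ![1, 1, s6, 1, 1, om]) rfl rfl fun y => (e6 y).trans (by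
    congr 1; funext i; fin_cases i <;> rfl)
  have o : (1 : F4) + 1 ^ 2 = 0 := by decide +kernel
  have o1 : om + om ^ 2 = 1 := by decide +kernel
  have o2 : om * om + (om * om) ^ 2 = 1 := by decide +kernel
  simp only [cons_val, o, o1, o2, zero_mul, one_mul, add_zero, zero_add] at q1 q2 q12 q122 q3 q4 q5 q6
  have A : ∀ n2 n3 n5 s s' : F4, s ^ 3 = 1 → s' ^ 3 = 1 → n2 ^ 3 + (s + s ^ 2) * n5 ^ 3 = 0 →
      n3 ^ 3 + (s' + s' ^ 2) * n5 ^ 3 = 0 → n2 ^ 3 + n3 ^ 3 + (s * s' + (s * s') ^ 2) * n5 ^ 3 = 0 →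
      n2 ^ 3 + n3 ^ 3 + (s * s' * s' + (s * s' * s') ^ 2) * n5 ^ 3 = 0 → n2 = 0 ∨ n3 = 0 := by decide +kernel
  have B : ∀ n r : F4, r * 0 ^ 3 + n ^ 3 = 0 → n = 0 := by decide +kernel
  have n2 : a g e0 2 = 0 := (A _ _ _ _ _ c1 c2 q1 q2 q12 q122).elim id fun e => by
    rw [e, add_comm] at q3; exact B _ _ q3
  rw [n2] at q4 q5 q6
  refine Subtype.ext (D.K2 g.2 fun y e => ?_)
  have a0 := D.al g.2
  rw [D.act h1 e, h_eq, a0, e, aa]
  simp only [Pi.add_apply, n2, B _ _ q4, B _ _ q5, B _ _ q6, show e0 2 = 0 from rfl, show e0 3 = 0 from rfl,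
    show e0 4 = 0 from rfl, show e0 5 = 0 from rfl]
  simp

theorem ker3 [Finite M] : Nat.card D.θs.ker ≤ 3 := by
  have k : ∀ g : D.θs.ker, D.θh g = (D.θh g).det • (1 : Matrix (Fin 4) (Fin 4) F4) := fun g => by
    have e : (D.θh g).det ^ 2 • D.θh g = 1 := congrArg (·.1.1) (MonoidHom.mem_ker.1 g.2)
    rw [← e, smul_smul, ← pow_succ', D.det3, one_smul]
  refine (Nat.card_le_card_of_injective (fun g : D.θs.ker => (⟨(D.θh g).det, D.det3 g⟩ : {c : F4 // c ^ 3 = 1}))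
    fun g g' e => ?_).trans (by rw [Nat.card_eq_fintype_card]; decide +kernel)
  have e0 : (D.θh g).det = (D.θh g').det := Subtype.mk.inj e
  have e' : D.θh g = D.θh g' := (k g).trans ((congrArg (· • (1 : Matrix (Fin 4) (Fin 4) F4)) e0).trans (k g').symm)
  exact Subtype.ext (inv_mul_eq_one.1 (D.K1 (by rw [map_mul, ← e', ← map_mul, inv_mul_cancel, map_one])))

theorem iso [Finite M] [IsSimpleGroup (SU 4 F4 2)] (h1 : Nat.card M = 25920) (h2 : Nat.card (SU 4 F4 2) = 25920) :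
    Nonempty (M ≃* SU 4 F4 2) := iso_of D.θs D.ker3 h1 h2

theorem cen (hM : Subgroup.center M = ⊥) : Subgroup.center Γ = ⊥ := by
  refine (Subgroup.eq_bot_iff_forall _).2 fun c hc => ?_
  have cc := Subgroup.mem_center_iff.1 hc
  by_cases hm : c ∈ M
  · exact congrArg Subtype.val ((Subgroup.eq_bot_iff_forall _).1 hM ⟨c, hm⟩
      (Subgroup.mem_center_iff.2 fun g => Subtype.ext (cc g)))
  exfalso
  let y : X := ![0, 0, 1, 0, 0, 0]
  have k : ∀ k : Fin 6, 3 ≤ k → ∀ i, i ≠ k → a c y i = 0 := fun k hk i hi => by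
    obtain ⟨t, m, s, -, e⟩ := D.tor k ![1, 1, om, 1, 1, 1] (by decide +kernel) rfl rfl (le_trans (by decide) hk)
    have e1 : a t y = om • y := by
      rw [e]; funext j; fin_cases j <;> simp [y]
      rw [Function.update_of_ne (by rintro rfl; exact absurd hk (by decide))]; rfl
    have e2 := congrFun (e (a c y)) i
    rw [← D.mul, cc, D.mul, e1, D.semi c hm, Pi.mul_apply, Function.update_of_ne hi, Pi.smul_apply, smul_eq_mul] at e2
    have : ∀ (i : Fin 6) (r : F4), (om + 1) * r = ![1, 1, om, 1, 1, 1] i * r → r = 0 := by decide +kernel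
    exact this _ _ e2
  have z : a c y = 0 := funext fun i => by
    by_cases e : i = 5
    · exact k 4 (by decide) i (by rw [e]; decide)
    · exact k 5 (by decide) i e
  have := D.nq c y
  rw [z] at this
  revert this; decide +kernel

end Dt
end CA.F24U
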