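import Cfsg.Agent.Lib.Rec.SzA
import Cfsg.Agent.Lib.Comp.CLink

/-! Groups of Suzuki type: the action of the involution centraliser on `Q`. -/

set_option autoImplicit false
set_option linter.all false
set_option maxRecDepth 100000

namespace CA.SzA

open CA.CNet CA.CWord CA.CPres CA.RegM CA.SzQ CA.SzF Subgroup CA.BG CA.GW CA.H7Lge Cfsg CA.CPoint CA.CLevel Equiv
open CA.U43B (Act inn act_inn len_le)
open scoped commutatorElement

universe u
variable {G : Type u} [Group G]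

theorem key_lt (w : Word) : key w < 128 :=
  (ipt_eq hlk w ⟨0, by decide⟩).trans_lt (Fin.is_lt _)

noncomputable def kf (w : Word) : Fin F.n := ⟨key w, key_lt w⟩
noncomputable def lab (γ : ℕ → G) (j : Fin F.n) : G := ev (q6 γ) (nth El [] j)

/-- the pairs `(h, π)` with `h` acting on `Q` as `π` -/
def R (γ : ℕ → G) : Subgroup (G × Perm (Fin F.n)) where
  carrier := {p | ∀ j, p.1 * lab γ j * p.1⁻¹ = lab γ (p.2 j)}
  one_mem' := fun j => by simp
  mul_mem' := fun {a b} ha hb j => by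
    rw [Prod.snd_mul, Perm.mul_apply, ← ha, ← hb, Prod.fst_mul]; group
  inv_mem' := fun {a} ha j => by
    have := ha (a.2⁻¹ j)
    rw [show a.2 (a.2⁻¹ j) = j by simp] at this
    rw [← this, Prod.fst_inv, Prod.snd_inv]; simp [mul_assoc]

/-- the key of the image of `v` under `w` -/
noncomputable def im (w v : Word) : ℕ := ipt lf (winv w) (key v)

theorem im_eq (w v : Word) : im w v = F.ev w (kf v) := by
  have := ipt_eq hlf (winv w) (kf v)
  rwa [Ctx.ev, ev_winv, inv_inv] at this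

def o5 : Word := [18,13,20,13]
theorem k_5 : lall El (fun w => imp (eqk key (w ++ w) []) (imp (eqk key (w ++ S) (S ++ w))
    (imp (eqk key (wpow (w ++ nth El [] (im o5 w)) 2) []) (lany [[], Z, S, Z ++ S] (eqk key w))))) = true := by
  decide +kernel

namespace SQ
variable [Finite G] {γ : ℕ → G} {Q : Subgroup G} {z : G} (u : SQ γ Q z)
include u

theorem eq {v w : Word} (h : key v = key w) : ev (q6 γ) v = ev (q6 γ) w := (u.md.eq _ _).2 h
theorem ne {v w : Word} (h : key v ≠ key w) : ev (q6 γ) v ≠ ev (q6 γ) w := fun e => h ((u.md.eq _ _).1 e)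
theorem lab_kf (w : Word) : lab γ (kf w) = ev (q6 γ) w := u.eq (k_el _ (key_lt w))
theorem lab_inj {i j : Fin F.n} (h : lab γ i = lab γ j) : i = j :=
  Fin.ext ((k_el _ i.2).symm.trans (((u.md.eq _ _).1 h).trans (k_el _ j.2)))
theorem lab_surj {x : G} (hx : x ∈ Q) : ∃ j, lab γ j = x :=
  let ⟨w, _, e⟩ := u.md.all x hx; ⟨kf w, (u.lab_kf w).trans e.symm⟩
theorem gQ {i : ℕ} (hi : i < 6) : γ i ∈ Q := by
  have := u.md.mem [2 * i]
  rwa [ev_gen, q6, if_pos hi] at this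

theorem evR (w : Word) : (ev γ w, F.ev w) ∈ R γ := CLink.ev_pair (R := R γ) (a := γ) (b := F.g) (fun i j => by
  rcases lt_or_ge i 11 with hi | hi
  · refine (u.act i hi _).trans (u.eq ((k_act i hi j j.2).trans ?_))
    rw [hlf, lv_even]; exact (k_el _ (F.g i j).2).symm
  · simp only [u.one i hi, ctx_one F (k := 11) rfl i hi]; simp) w

theorem conj_iff {w v v' : Word} : ev γ w * ev (q6 γ) v * (ev γ w)⁻¹ = ev (q6 γ) v' ↔ im w v = key v' := by
  rw [← u.lab_kf v, u.evR w, ← u.lab_kf v', im_eq]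
  exact ⟨fun e => congrArg Fin.val (u.lab_inj e), fun e => congrArg _ (Fin.ext e)⟩

theorem conj_im (w v : Word) : ev γ w * ev (q6 γ) v * (ev γ w)⁻¹ = ev (q6 γ) (nth El [] (im w v)) :=
  u.conj_iff.2 (k_el _ (im_eq w v ▸ Fin.is_lt _)).symm

theorem evH (w : Word) : ev γ w ∈ 𝓒₁(z) := ev_mem (fun i => by
  rcases lt_or_ge i 11 with hi | hi
  · exact mem_cent1_of_conj (u.ez ▸ (u.act i hi _).trans (u.eq (k_sg i hi).2.2.1))
  · exact u.one i hi ▸ one_mem _) w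

theorem ezg : ev γ Z = z := (ev_q6 γ (by decide)).symm.trans u.ez

theorem cenZ {h : G} (e : ∀ x ∈ Q, h * x * h⁻¹ = x) : h = 1 ∨ h = z :=
  have : h ∈ 𝓒(Q) := mem_cent.2 fun x hx => (mul_inv_eq_iff_eq_mul.1 (e x hx)).symm
  u.ex.mem_iff.1 (u.ex.ctr ⟨u.cent this, this⟩)

theorem cen6 {h : G} (e : ∀ k < 6, h * γ k * h⁻¹ = γ k) : h = 1 ∨ h = z := u.cenZ fun x hx => by
  obtain ⟨w, -, rfl⟩ := u.md.all x hx
  refine conj_eq_of_cent (mem_cent1_symm.1 (ev_mem (fun i => ?_) w))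
  unfold q6; split_ifs with hi
  exacts [mem_cent1_symm.1 (mem_cent1_of_conj (e i hi)), one_mem _]

theorem same {p q : G} (e : ∀ k < 6, p * γ k * p⁻¹ = q * γ k * q⁻¹) : p = q ∨ p = q * z := by
  rcases u.cen6 (h := q⁻¹ * p) (fun k hk => by
    calc _ = q⁻¹ * (p * γ k * p⁻¹) * q := by group
      _ = _ := by rw [e k hk]; group) with h | h
  · exact .inl (inv_mul_eq_one.1 h).symm
  · exact .inr (inv_mul_eq_iff_eq_mul.1 h)

theorem eq3 {p q : G} (hp : p ^ 3 = 1) (hq : q ^ 3 = 1) (hz : q ∈ 𝓒₁(z))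
    (e : ∀ k < 6, p * γ k * p⁻¹ = q * γ k * q⁻¹) : p = q := (u.same e).resolve_right fun h => by
  rw [h, (show Commute q z from mem_cent1.1 hz).mul_pow, hq, one_mul, pow_three, u.ex.sq, mul_one] at hp
  exact u.ex.ne hp

theorem sameR {p q : G} {π : Perm (Fin F.n)} (hp : (p, π) ∈ R γ) (hq : (q, π) ∈ R γ) (k : ℕ) (hk : k < 6) :
    p * γ k * p⁻¹ = q * γ k * q⁻¹ := by
  obtain ⟨j, e⟩ := u.lab_surj (u.gQ hk)
  rw [← e]; exact (hp j).trans (hq j).symm

theorem eqz {v w : Word} (h : F.eqW v w = true) : ev γ v = ev γ w ∨ ev γ v = ev γ w * z :=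
  u.same (u.sameR (u.evR v) (Ctx.eq_of_eqW hF h ▸ u.evR w))

/-- conjugates of generators of order three -/
theorem cj3 (v : Word) (i j : ℕ) (h : 6 ≤ i / 2 ∧ 6 ≤ j / 2 ∧ F.eqW (inn v [i]) [j] = true) :
    ev γ v * ev γ [i] * (ev γ v)⁻¹ = ev γ [j] := by
  have c : ∀ i, 6 ≤ i / 2 → ev γ [i] ^ 3 = 1 := fun i hi => by
    simp only [ev, lv, List.map_cons, List.map_nil, List.prod_cons, List.prod_nil, mul_one]
    split_ifs <;> simp [u.cube _ hi]
  refine u.eq3 (by rw [conj_pow, c i h.1]; simp) (c j h.2.1) (u.evH _) ?_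
  rw [act_inn]
  exact u.sameR (u.evR _) (Ctx.eq_of_eqW hF h.2.2 ▸ u.evR _)

theorem exists_phi : ∃ φ : 𝓒₁(z) →* Perm (Fin F.n), (∀ h, (h.1, φ h) ∈ R γ) ∧ Nat.card φ.ker = 2 ∧
    φ.range = F.grp gens := by
  have ex : ∀ h : 𝓒₁(z), ∃ π, (h.1, π) ∈ R γ := fun h => by
    choose f hf using fun j => u.lab_surj (conj_mem_of_norm u.norm h.2 (u.md.mem (nth El [] (j : Fin F.n))))
    refine ⟨Equiv.ofBijective f (Finite.injective_iff_bijective.1 fun i j e => u.lab_inj ?_), fun j => (hf j).symm⟩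
    have := (hf i).symm.trans ((congrArg _ e).trans (hf j))
    exact mul_left_cancel (mul_right_cancel this)
  have un : ∀ {h π π'}, (h, π) ∈ R γ → (h, π') ∈ R γ → π = π' := fun a b =>
    Equiv.ext fun j => u.lab_inj ((a j).symm.trans (b j))
  choose f hf using ex
  let φ : 𝓒₁(z) →* Perm (Fin F.n) := MonoidHom.mk' f fun a b => un (hf _) (mul_mem (hf a) (hf b))
  have hk : φ.ker = (zpowers z).subgroupOf 𝓒₁(z) := by
    ext h
    refine ⟨fun e => u.ex.mem_iff.2 (u.cenZ fun x hx => ?_), fun e => un (hf h) fun j => ?_⟩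
    · obtain ⟨j, rfl⟩ := u.lab_surj hx
      exact (hf h j).trans (congrArg (fun π : Perm (Fin F.n) => lab γ (π j)) e)
    · exact mul_inv_eq_iff_eq_mul.2 (u.ex.cz (x := (h : G)) (u.ex.cent (u.md.mem _)) e).symm
  have c2 : Nat.card φ.ker = 2 := by
    rw [hk, Nat.card_congr (subgroupOfEquivOfLe (u.ex.le.trans u.ex.cent)).toEquiv, u.ex.card]
  have a1 := card_hom φ
  rw [c2, u.card] at a1
  have l : F.grp gens ≤ φ.range := (grp_le_iff _).2 fun w _ => ⟨⟨_, u.evH w⟩, un (hf _) (u.evR w)⟩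
  exact ⟨φ, hf, c2, (eq_of_le_of_card_ge l (le_trans (by omega) lowF.1)).symm⟩

theorem cov {h : G} (hh : h ∈ 𝓒₁(z)) : ∃ w, h = ev γ w := by
  obtain ⟨φ, h1, -, h2⟩ := u.exists_phi
  obtain ⟨w, e⟩ := exists_subst (h2.le ⟨⟨h, hh⟩, rfl⟩)
  rcases u.same (u.sameR (h1 ⟨h, hh⟩) (by rw [← e]; exact u.evR (subst gens w))) with h | h
  · exact ⟨_, h⟩
  · exact ⟨subst gens w ++ Z, by rw [ev_append, u.ezg]; exact h⟩

theorem cardK : ♯(𝓒₁(z) ⊓ (𝓒₁(γ 4) ⊓ 𝓒₁(γ 5))) = 1152 := by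
  obtain ⟨φ, h1, h2, h3⟩ := u.exists_phi
  have c0 : Nat.card (F.grp gens) = 1658880 := by
    have := card_hom φ
    rw [h2, h3, u.card] at this; omega
  let p : Fin F.n := ⟨10, by decide⟩
  let q : Fin F.n := ⟨12, by decide⟩
  have f1 : ∀ x ∈ F.grp lowF_w1, x p = p := CLow.fix_of_mapsP hlf (by decide +kernel)
  have f2 : ∀ x ∈ F.grp lowF_w2, x q = q := CLow.fix_of_mapsP hlf (by decide +kernel)
  have l1 : F.grp lowF_w1 ≤ F.grp gens := (grp_le_iff _).2 fun w _ => h3 ▸ ⟨⟨_, u.evH w⟩,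
    Equiv.ext fun j => u.lab_inj ((h1 _ j).symm.trans (u.evR w j))⟩
  have l2 : F.grp lowF_w2 ≤ F.grp lowF_w1 := grp_mono _ (by decide +kernel)
  have e1 : F.grp lowF_w1 = F.grp gens ⊓ MulAction.stabilizer _ p :=
    eq_of_le_of_card_ge (le_inf l1 f1) ((CBlk.card_le_of_fix hF (p := p)
      (H := F.grp gens ⊓ MulAction.stabilizer _ p) inf_le_left (fun x hx => (mem_inf.1 hx).2) sc4
      (m := 72) (by decide) c_4 (M := 23040) c0.le).trans lowF_1.1)
  have c1 : Nat.card (F.grp lowF_w1) ≤ 40 * 576 := CBlk.card_le_of_fix hF l1 f1 sc4 (by decide) c_4 c0.le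
  have c2 : ∀ H : Subgroup (Perm (Fin F.n)), H ≤ F.grp lowF_w1 → (∀ x ∈ H, x q = q) → Nat.card H ≤ 576 :=
    fun H a b => CBlk.card_le_of_fix hF a b scp (by decide) c_p c1
  have e2 : F.grp lowF_w2 = F.grp lowF_w1 ⊓ MulAction.stabilizer _ q :=
    eq_of_le_of_card_ge (le_inf l2 f2) ((c2 (F.grp lowF_w1 ⊓ MulAction.stabilizer _ q) inf_le_left
      fun x hx => (mem_inf.1 hx).2).trans lowF_2.1)
  have e3 : ∀ (h : 𝓒₁(z)) (i : ℕ) (hi : i < 6) (p : Fin F.n), key [2 * i] = p →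
      (h.1 ∈ 𝓒₁(γ i) ↔ φ h p = p) := fun h i hi p e => by
    have : lab γ p = γ i := by
      rw [show p = kf [2 * i] from Fin.ext e.symm, u.lab_kf, ev_gen, q6, if_pos hi]
    rw [← this, mem_cent1, ← mul_inv_eq_iff_eq_mul, h1 h p]
    exact ⟨u.lab_inj, congrArg _⟩
  have e4 : (𝓒₁(z) ⊓ (𝓒₁(γ 4) ⊓ 𝓒₁(γ 5))).subgroupOf 𝓒₁(z) = (F.grp lowF_w2).comap φ := by
    ext h
    rw [e2, e1, ← h3, mem_subgroupOf, mem_inf, mem_inf, e3 h 4 (by decide) p (by decide +kernel),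
      e3 h 5 (by decide) q (by decide +kernel)]
    simp [MulAction.mem_stabilizer_iff]
  have := card_hom (φ.domRestrict ((F.grp lowF_w2).comap φ))
  rw [MonoidHom.domRestrict_range, MonoidHom.ker_domRestrict, map_comap_eq_self ((l2.trans l1).trans h3.ge),
    Nat.card_congr (subgroupOfEquivOfLe (ker_le_comap _ _)).toEquiv, h2, le_antisymm (c2 _ l2 f2) lowF_2.1, ← e4,
    Nat.card_congr (subgroupOfEquivOfLe inf_le_left).toEquiv] at this
  exact this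

theorem orb {ws : List Word} {sc : List ℕ} {p : ℕ} (v : Word) {w : Word} (e : key v = p)
    (h : tb (F.clo ws sc (bit p)) (key w) = true) :
    ∃ h ∈ grp γ ws, h * ev (q6 γ) v * h⁻¹ = ev (q6 γ) w := by
  subst e
  obtain ⟨x, h1, h2⟩ := clo_bit hF ws sc (kf v) (kf w) (by rwa [tb_eq] at h)
  obtain ⟨t, rfl⟩ := exists_subst h1
  exact ⟨_, subst_mem_grp _ _ t, u.conj_iff.2 ((im_eq _ _).trans (congrArg Fin.val h2))⟩

theorem grpH (ws : List Word) : grp γ ws ≤ 𝓒₁(z) := (grp_le_iff _).2 fun w _ => u.evH w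

theorem tr2 {r : G} (hr : r ∈ Q) (h2 : r * r = 1) (h1 : r ≠ 1) (hz : r ≠ z) :
    ∃ h ∈ 𝓒₁(z), h * ev (q6 γ) S * h⁻¹ = r := by
  obtain ⟨w, rfl, h⟩ := u.md.of k_2 hr
  simp only [imp_iff, bor_iff, u.md.eqk, ev_append] at h
  obtain ⟨k, a, b⟩ := u.orb S (by decide +kernel) (((h h2).resolve_left h1).resolve_left (u.ez ▸ hz :))
  exact ⟨k, u.grpH _ a, b⟩

theorem trp {a b : G} (ha : a ∈ Q) (hb : b ∈ Q) (a2 : a * a = z) (b2 : b * b = z) (hn : a * b ≠ b * a) :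
    ∃ h ∈ 𝓒₁(z), h * γ 4 * h⁻¹ = a ∧ h * γ 5 * h⁻¹ = b := by
  have g4 : ev (q6 γ) [8] = γ 4 := ev_gen (q6 γ) 4
  have g5 : ev (q6 γ) [10] = γ 5 := ev_gen (q6 γ) 5
  obtain ⟨w, rfl, h⟩ := u.md.of k_4 ha
  simp only [imp_iff, u.md.eqk, ev_append] at h
  obtain ⟨k, k1, k2⟩ := u.orb [8] (by decide +kernel) (h (a2.trans u.ez.symm))
  have kz := u.grpH _ k1
  obtain ⟨v, e, h⟩ := u.md.of k_p (conj_mem_of_mem_norm' (u.norm kz) hb)
  simp only [imp_iff, bor_iff, u.md.eqk, ev_append, ← e] at h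
  obtain ⟨m, m1, m2⟩ := u.orb [10] (by decide +kernel) ((h (by
    rw [show ev (q6 γ) [0,0] = z from u.ez, ← conj_eq_of_cent (inv_mem kz), ← b2]; group)).resolve_left fun e => hn (by
      rw [← k2]
      calc _ = k * (ev (q6 γ) [8] * (k⁻¹ * b * k)) * k⁻¹ := by group
        _ = _ := by rw [← e]; group))
  have m3 : m ∈ 𝓒₁(ev (q6 γ) [8]) := (grp_le_iff _).2 (fun w hw => mem_cent1_of_conj (u.conj_iff.2
    ((by decide +kernel : ∀ w ∈ lowF_w1, im w [8] = key [8]) w hw))) m1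
  refine ⟨k * m, mul_mem kz (u.grpH _ m1), ?_, ?_⟩
  · rw [← k2, ← g4]; nth_rw 2 [← conj_eq_of_cent m3]; group
  · calc _ = k * (m * ev (q6 γ) [10] * m⁻¹) * k⁻¹ := by rw [g5]; group
      _ = b := by rw [m2, ← e]; group

theorem lx : LX Q z := u.ex.lx u.norm u.cent
theorem c8 : 8 < ♯Q := (len_le (l := (ltake El 9).map (ev (q6 γ)))
  ((by decide +kernel : ((ltake El 9).map key).Nodup).of_map _ |>.map_on fun a ha b hb e =>
    List.inj_on_of_nodup_map (by decide +kernel : ((ltake El 9).map key).Nodup) ha hb ((u.md.eq _ _).1 e))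
  fun y hy => by obtain ⟨w, -, rfl⟩ := List.mem_map.1 hy; exact u.md.mem w).trans' (by rw [List.length_map]; decide +kernel)

theorem pair {p : G} (h1 : p * z * p⁻¹ ∈ Q) (h2 : p * z * p⁻¹ ≠ z) : Pair Q z (cj p Q) (p * z * p⁻¹) :=
  u.lx.pair h1 h2 (u.ex.large_of_fused u.norm u.cent u.c8 h1 h2).1

theorem four {p : G} (h1 : p * z * p⁻¹ ∈ Q) (h2 : p * z * p⁻¹ ≠ z) {x : G} (a : x ∈ Q) (b : x ∈ cj p Q) :
    x = 1 ∨ x = z ∨ x = p * z * p⁻¹ ∨ x = z * (p * z * p⁻¹) := by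
  have P := u.pair h1 h2
  obtain ⟨h, hh, e⟩ := u.tr2 h1 P.r.sq P.r.ne h2
  generalize p * z * p⁻¹ = y at *
  have o1 : h * ev γ o5 * h⁻¹ ∈ 𝓒₁(z) := mul_mem (mul_mem hh (u.evH _)) (inv_mem hh)
  have o2 : h * ev γ o5 * h⁻¹ ∈ 𝓒₁(y) := mem_cent1_of_conj (by
    rw [← e]; nth_rw 2 [← u.conj_iff.2 (show im o5 S = key S by decide +kernel)]; group)
  have c := P.E_sq (mul_mem ⟨a, b⟩ ⟨conj_mem_of_norm u.norm o1 a, conj_mem_of_norm P.r.norm o2 b⟩)
  obtain ⟨w, e1, k⟩ := u.md.of k_5 (conj_mem_of_mem_norm' (u.norm hh) a)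
  obtain rfl : x = h * ev (q6 γ) w * h⁻¹ := by rw [← e1]; group
  simp only [imp_iff, lany_iff, u.md.eqk, ev_append, ev_wpow, ← u.conj_im, List.mem_cons, List.not_mem_nil,
    or_false, exists_eq_or_imp, exists_eq_left, u.ez] at k
  have i : ∀ {a b : G}, h * a * h⁻¹ = h * b * h⁻¹ → a = b := fun e => mul_left_cancel (mul_right_cancel e)
  have hz := conj_eq_of_cent hh
  rcases k (i (by rw [← conj_mul, P.E_sq ⟨a, b⟩]; simp [ev]))
    (i (by rw [← conj_mul, ← conj_mul, e]; exact mem_cent1.1 (P.r.cent b)))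
    (i (by rw [show ev (q6 γ) [] = 1 from rfl, mul_one, mul_inv_cancel, ← c, sq]; group)) with k | k | k | k <;> rw [k]
  · exact .inl (by simp [ev])
  · exact .inr (.inl hz)
  · exact .inr (.inr (.inl e))
  · exact .inr (.inr (.inr (by rw [← conj_mul, hz, e])))

theorem conj {h : G} (hh : h ∈ 𝓒₁(z)) : SQ (fun i => h * γ i * h⁻¹) Q z := by
  have e : ∀ w, ev (q6 fun i => h * γ i * h⁻¹) w = h * ev (q6 γ) w * h⁻¹ := fun w => by
    refine Eq.trans (congrArg (ev · w) (funext fun i => ?_)) (map_ev (MulAut.conj h).toMonoidHom (q6 γ) w).symm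
    unfold q6; split_ifs <;> simp
  refine ⟨⟨fun v w => ?_, fun x hx => ?_, fun w => e w ▸ conj_mem_of_norm u.norm hh (u.md.mem w)⟩,
    by rw [e, u.ez, conj_eq_of_cent hh], fun i hi => by simp [u.one i hi], fun i hi w => ?_,
    fun i hi => by rw [conj_pow, u.cube i hi]; simp, u.ex, u.norm, u.cent, u.card, u.nwc⟩
  · rw [e, e, mul_left_inj, mul_right_inj, u.md.eq]
  · obtain ⟨w, a, b⟩ := u.md.all _ (conj_mem_of_mem_norm' (u.norm hh) hx)
    exact ⟨w, a, by rw [e, ← b]; group⟩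
  · rw [e, e, ← u.act i hi w]; group

end SQ
end CA.SzA
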