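import Cfsg.Agent.Lib.GW.GW14
import Cfsg.Agent.Lib.Odd.BG2

/-! A 3-local lemma for groups of `U₄(3)` type. -/

set_option autoImplicit false
set_option linter.all false

namespace CA.U43A

open Subgroup Cfsg CA.BG CA.OQuo CA.MC2 CA.GW
open scoped commutatorElement

variable {G : Type*} [Group G] [Finite G]

theorem od_zp {x : G} (h : x ^ 3 = 1) : Od (zpowers x) :=
  od_iff.2 (Nat.card_zpowers x ▸ Odd.of_dvd_nat (by decide) (orderOf_dvd_of_pow_eq_one h))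

theorem norm_dser (X : Subgroup G) : ∀ k, 𝓝(X) ≤ 𝓝(dser X k)
  | 0 => le_rfl
  | k + 1 => norm_comm (norm_dser X k) (norm_dser X k)

structure Hyp (a c y w n z : G) : Prop where
  aa : a * a = 1
  cc : c * c = 1
  ez : a * c * (a * c) = z
  zz : z * z = 1
  z1 : z ≠ 1
  y3 : y ^ 3 = 1
  w3 : w ^ 3 = 1
  w1 : w ≠ 1
  yw : y * w * y⁻¹ = w
  ay : a * y * a⁻¹ = y
  aw : a * w * a⁻¹ = w⁻¹
  cw : c * w * c⁻¹ = w
  cy : c * y * c⁻¹ = y⁻¹
  nw : n * w * n⁻¹ = w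
  nz : n * z * n⁻¹ = c
  nc : n * c * n⁻¹ = z * c
  cen : ∀ v, v * z * v⁻¹ = z → v * w * v⁻¹ ∈ zpowers w → v * a * v⁻¹ = a → v * c * v⁻¹ = c → v * v = 1 → v = 1 ∨ v = z
  max : ∀ x, x * z * x⁻¹ = z → x * w * x⁻¹ ∈ zpowers w → x ∈ V4 (a * c) c ∨
    ∃ u ∈ V4 (a * c) c, ((u * x) ^ 4) ^ 3 = 1 ∧ (u * x) ^ 4 ≠ 1
  odd : ∀ x, x * z * x⁻¹ = z → x * w * x⁻¹ ∈ zpowers w → x ^ 12 = 1 ∧
    (x ^ 3 = 1 → x ∈ zpowers w ∨ ∃ k : ℕ, y⁻¹ * x ^ k ∈ zpowers w)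
  card : ♯𝓒₁(a) = 1152

namespace Hyp
variable {a c y w n z : G} (h : Hyp a c y w n z)
include h

theorem mc : MC 1 0 0 (a * c) c := by
  have ai := inv_of_sq h.aa
  have ci := inv_of_sq h.cc
  refine ⟨orderOf_eq_prime_pow (by simpa [sq, h.ez] using h.z1) ?_, fun hc => h.z1 ?_, ?_, by simpa [sq] using h.cc,
    by simp⟩
  · rw [show 2 ^ (1 + 1) = 2 * 2 from rfl, pow_mul, sq, sq, h.ez, h.zz]
  · obtain ⟨k, hk⟩ := mem_zpowers_iff.1 hc
    have : c * (a * c) = a * c * c := by nth_rw 1 4 [← hk]; exact (Commute.refl _).zpow_left k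
    rw [← h.ez, mul_assoc, this, mul_assoc a c c, h.cc, mul_one, h.aa]
  · simp [mul_assoc, ai, ci, h.cc]

theorem ez' : z = (a * c) ^ (2 ^ 1 : ℤ) := by rw [← h.ez, pow_one, zpow_two]
theorem four : Four z c := h.ez' ▸ mc_four h.mc
theorem cX {x : G} (e : x * w * x⁻¹ = w) : x ∈ 𝓝(zpowers w) :=
  mem_norm_of_cent (cent_zpowers w ▸ mem_cent1_of_conj e)
theorem aX : a ∈ 𝓝(zpowers w) := (ivt_zp h.aw).norm
theorem TX : V4 (a * c) c ≤ 𝓝(zpowers w) := V4_le (mul_mem h.aX (h.cX h.cw)) (h.cX h.cw)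
theorem aT : a ∈ V4 (a * c) c := by simpa [mul_assoc, h.cc] using mul_mem_V4 (a * c) c
theorem zT : z ∈ V4 (a * c) c := h.ez ▸ mul_mem (left_mem_V4 _ _) (left_mem_V4 _ _)
theorem VX : V4 z c ≤ 𝓝(zpowers w) := V4_le (h.TX h.zT) (h.cX h.cw)
theorem zy : z * y * z⁻¹ = y := by
  have : a * c * y * (a * c)⁻¹ = y⁻¹ := by
    calc _ = a * (c * y * c⁻¹) * a⁻¹ := by group
      _ = (a * y * a⁻¹)⁻¹ := by rw [h.cy]; group
      _ = _ := by rw [h.ay]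
  calc _ = a * c * (a * c * y * (a * c)⁻¹) * (a * c)⁻¹ := by rw [← h.ez]; group
    _ = (a * c * y * (a * c)⁻¹)⁻¹ := by rw [this]; nth_rw 2 [← this]; group
    _ = y := by rw [this, inv_inv]

theorem d2 : D2 𝓝(zpowers w) := by
  refine d2_of_syl (syl_of_maximal Nat.prime_two h.TX (mc_pi2 h.mc) fun Q hQ h1 h2 => ?_)
    (.inr ⟨1, _, _, h.mc, rfl⟩)
  obtain ⟨v, ⟨hv, hc⟩, h3⟩ := exists_inv (K := Q ⊓ 𝓒(Q)) fun ho =>
    hQ.meet_cent hQ le_normalizer (ne_bot_of_mem (h1 h.zT) h.z1) ((hQ.inf_left _).eq_bot ho)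
  have c : ∀ x ∈ Q, v * x * v⁻¹ = x := fun x hx => by rw [← mem_cent.1 hc x hx]; group
  obtain rfl := (h.cen v (c _ (h1 h.zT)) (conj_mem_of_norm h2 hv (mem_zpowers w)) (c _ (h1 h.aT))
    (c _ (h1 (right_mem_V4 _ _)))
    (sq_of_ord h3)).resolve_left (ne_one_of_ord h3)
  refine le_antisymm (fun x hx => ?_) h1
  rcases h.max x (by rw [mem_cent.1 hc x hx]; group) (conj_mem_of_norm h2 hx (mem_zpowers w)) with
    e | ⟨u, hu, e1, e2⟩
  · exact e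
  · exact absurd (mem_bot.1 ((hQ.of_le (zp_le.2 (pow_mem (mul_mem (h1 hu) hx) 4))).eq_bot (od_zp e1) ▸
      mem_zpowers _)) e2

theorem core : y ∈ 𝓞₂'(𝓝(zpowers w)) := by
  set X := 𝓝(zpowers w)
  have d := h.d2
  have yX : y ∈ X := h.cX h.yw
  have zX : z ∈ X := h.TX h.zT
  have yz : y ∈ 𝓒₁(z) := mem_cent1.2 (mem_cent1.1 (mem_cent1_of_conj h.zy)).symm
  by_cases hs : Group.IsSolvable X
  · exact d.solv_sig' hs (od_core _) ((core_le _ _).trans inf_le_left) h.zz zX (le_norm_core _ _)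
      (d.le_core h.four.oa zX (od_zp h.y3) (zp_le.2 yX) (zp_le.2 yz) (mem_zpowers y))
  have ha : a ∉ res X := fun ha => by
    have := conj_eq_of_cent (cent_zpowers w ▸ der_cent_cyclic inferInstance le_rfl
      (der_mono (res_le X) ((res_perf X).ge ha)))
    rw [h.aw] at this
    exact h.w1 ((od_zp h.w3).eq_one (mem_zpowers w) (by nth_rw 1 [← this]; simp))
  rcases d.type hs with hL | hL
  swap
  · exact absurd (d.a7_le hs hL (pi2_zp h.aa) (zp_le.2 h.aX) (mem_zpowers a)) ha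
  have hV := V4_le_iff.1 (d.cyc_res hs h.four h.VX ⟨h.nz, h.nc⟩ (h.cX h.nw))
  have a1 : a ≠ 1 := fun e => h.z1 (by rw [← h.ez, e, one_mul, h.cc])
  obtain ⟨h1, h2, -⟩ := (d.dq hs).l2_outer hL (bar_mem X hV.1) (bar_ord h.four.oa zX)
    (bar_mem X h.aX) (fun e => ha (mem_res_of_bar h.aa h.aX e)) (bar_ord (ord_two h.aa a1) h.aX)
  have h3 : ♯𝓞₂'(res X /ₒ X ⊓ 𝓒₁(bar X a)) ∣ 2 ^ 7 * 3 ^ 2 := by
    refine (card_dvd ((core_le _ _).trans (inf_le_inf_right _ (quo_mono _ (res_le X))))).trans ?_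
    rw [← bar_cent' h.aa h.aX]
    exact (card_mim_dvd _ _).trans ((card_dvd inf_le_right).trans (dvd_of_eq h.card))
  have h4 := ((od_core _).odd.coprime_two_right.pow_right 7).dvd_of_dvd_mul_left h3
  have h5 : 3 ∣ ♯𝓞₂'(res X /ₒ X ⊓ 𝓒₁(bar X a)) := by
    obtain ⟨k, -, e⟩ := (Nat.dvd_prime_pow Nat.prime_three).1 h4
    rcases k with _ | k
    · exact absurd (card_eq_one.1 e) h1
    · rw [e]; exact dvd_pow_self 3 (by omega)
  have yr : y ∈ res X := by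
    have := mul_mem (conj_mem_of_norm (le_norm_res X) yX hV.2) (inv_mem hV.2)
    have e : y * c * y⁻¹ * c⁻¹ = y ^ 2 := by
      calc _ = y * (c * y * c⁻¹)⁻¹ := by group
        _ = _ := by rw [h.cy, inv_inv, sq]
    have := pow_mem (e ▸ this) 2
    rwa [← pow_mul, show 2 * 2 = 3 + 1 from rfl, pow_succ, h.y3, one_mul] at this
  rw [← qel_eq_one_iff (nO X yX), ← orderOf_eq_one_iff]
  refine Nat.eq_one_of_dvd_coprimes (Nat.Coprime.coprime_dvd_left h5 h2)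
    (orderOf_dvd_of_pow_eq_one (by rw [← mel_pow _ (nO X yX), h.y3, mel_one]))
    (orderOf_dvd_natCard _ ⟨bar_mem X yr, mel_mem_centralizer_singleton _ (nO X yX) (nO X zX) yz⟩)

theorem main : y * (n * y * n⁻¹) = n * y * n⁻¹ * y := by
  classical
  set X := 𝓝(zpowers w)
  set O := 𝓞₂'(X)
  have cw : ∀ {x d : G}, x * w * x⁻¹ = w → d ∈ zpowers w → x * d * x⁻¹ = d := fun e hd => by
    obtain ⟨k, rfl⟩ := mem_zpowers_iff.1 hd
    rw [← conj_zpow, e]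
  have ex : ∃ k, dser O k ≤ zpowers w := by
    obtain ⟨k, hk⟩ := exists_dser O
    exact ⟨k + 0, by rw [hk, res_eq_bot_iff.2 (od_core X).solv]; exact bot_le⟩
  have h1 := Nat.find_spec ex
  rcases e : Nat.find ex with _ | m
  · rw [e] at h1
    rw [cw h.nw (h1 h.core)]
  have h2 := Nat.find_min ex (show m < Nat.find ex by omega)
  rw [e] at h1
  have hn : X ≤ 𝓝(dser O m) := (nO X).trans (norm_dser O m)
  have od : Od (dser O m) := (od_core X).of_le (dser_le O m)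
  have nX := h.cX h.nw
  have st : ∀ v, dser O m ⊓ 𝓒₁(v) ≤ zpowers w → dser O m ⊓ 𝓒₁(n * v * n⁻¹) ≤ zpowers w :=
    fun v hv x hx => by
      have h3 := hv ⟨conj_mem_of_norm hn (inv_mem nX) hx.1, mem_cent1_of_conj (by
        calc _ = n⁻¹ * (x * (n * v * n⁻¹) * x⁻¹) * n := by group
          _ = v := by rw [conj_eq_of_cent hx.2]; group)⟩
      have h4 := cw h.nw h3
      rwa [← h4, show n * (n⁻¹ * x * n⁻¹⁻¹) * n⁻¹ = x by group] at h3
  have h3 : ¬ dser O m ⊓ 𝓒₁(z) ≤ zpowers w := fun h3 =>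
    h2 (h.four.gen od (h.VX.trans hn) h3 (h.nz ▸ st _ h3) (h.nc ▸ st _ (h.nz ▸ st _ h3)))
  obtain ⟨x, ⟨x1, x2⟩, x3⟩ := SetLike.not_le_iff_exists.1 h3
  obtain ⟨o1, o2⟩ := h.odd x (conj_eq_of_cent x2)
    (conj_mem_of_norm ((dser_le O m).trans (core_le _ X)) x1 (mem_zpowers w))
  obtain ⟨k, hk⟩ := (o2 (od.eq_one (pow_mem x1 3) (by
    rw [← pow_add]; exact od.eq_one (pow_mem x1 _) (by rw [← pow_add, o1])))).resolve_left x3
  have h4 := h1 (commutator_mem_commutator (pow_mem x1 k) (conj_mem_of_norm hn nX (pow_mem x1 k)))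
  obtain ⟨d, hd, e1⟩ : ∃ d ∈ zpowers w, x ^ k = y * d := ⟨_, hk, by group⟩
  have yw' : n * y * n⁻¹ * w * (n * y * n⁻¹)⁻¹ = w := by
    nth_rw 1 [← h.nw]; nth_rw 2 [← h.nw]; nth_rw 2 [← h.yw]; group
  have zy' : z * (n * y * n⁻¹) * z⁻¹ = (n * y * n⁻¹)⁻¹ := by
    have : z * c * y * (z * c)⁻¹ = y⁻¹ := by
      calc _ = z * (c * y * c⁻¹) * z⁻¹ := by group
        _ = (z * y * z⁻¹)⁻¹ := by rw [h.cy]; group
        _ = _ := by rw [h.zy]
    calc _ = n * (z * c * y * (z * c)⁻¹) * n⁻¹ := by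
          nth_rw 1 2 [← Cyc.ca ⟨h.nz, h.nc⟩ h.four]; group
      _ = _ := by rw [this]; group
  have zw : z * w * z⁻¹ = w := by
    have : a * c * w * (a * c)⁻¹ = w⁻¹ := by
      calc _ = a * (c * w * c⁻¹) * a⁻¹ := by group
        _ = _ := by rw [h.cw, h.aw]
    calc _ = a * c * (a * c * w * (a * c)⁻¹) * (a * c)⁻¹ := by rw [← h.ez]; group
      _ = (a * c * w * (a * c)⁻¹)⁻¹ := by rw [this]; nth_rw 2 [← this]; group
      _ = w := by rw [this, inv_inv]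
  have e2 : n * (y * d) * n⁻¹ = n * y * n⁻¹ * d := by nth_rw 2 [← cw h.nw hd]; group
  rw [e1, e2] at h4
  generalize n * y * n⁻¹ = y' at *
  have c1 : Commute y d := mul_inv_eq_iff_eq_mul.1 (cw h.yw hd)
  have c2 : Commute y' d := mul_inv_eq_iff_eq_mul.1 (cw yw' hd)
  have e3 : ⁅y * d, y' * d⁆ = y * y' * y⁻¹ * y'⁻¹ := by
    calc _ = y * (d * y') * (d * d⁻¹) * (y⁻¹ * d⁻¹) * y'⁻¹ := by rw [commutatorElement_def]; group
      _ = _ := by rw [← c2.eq, c1.inv_inv.eq]; group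
  rw [e3] at h4
  have e4 : y * y'⁻¹ * y⁻¹ * y' = y * y' * y⁻¹ * y'⁻¹ := by
    calc _ = (z * y * z⁻¹) * (z * y' * z⁻¹) * (z * y * z⁻¹)⁻¹ * (z * y' * z⁻¹)⁻¹ := by
          rw [h.zy, zy', inv_inv]
      _ = z * (y * y' * y⁻¹ * y'⁻¹) * z⁻¹ := by group
      _ = _ := cw zw h4
  have e5 := (od_zp h.w3).eq_one h4 (by
    calc _ = y * y' * y⁻¹ * y'⁻¹ * (y' * (y * y'⁻¹ * y⁻¹ * y') * y'⁻¹) := by rw [e4, cw yw' h4]
      _ = 1 := by group)
  rw [mul_inv_eq_one, mul_inv_eq_iff_eq_mul] at e5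
  exact e5

end Hyp
end CA.U43A
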