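import Cfsg.Agent.Lib.Rec.U43B0
import Cfsg.Agent.Lib.Rec.U43H

/-! Groups of `U₄(3)` type: the structure of the involution centraliser. -/

set_option autoImplicit false
set_option linter.all false
set_option maxRecDepth 100000

namespace CA.U43B

open CA.CNet CA.CWord CA.CPres CA.RegM CA.U43Q

universe u
variable {G : Type u} [Group G]

structure U (g : ℕ → G) (Q : Subgroup G) (x1 x2 : G) : Prop where
  md : Md g key El Q
  one : ∀ i, 4 ≤ i → g i = 1
  rel : ∀ r ∈ rels, ev g r = 1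
  a1 : Act g x1 (subst σ1)
  a2 : Act g x2 (subst σ2)
  c1 : x1 ^ 3 = 1
  c2 : x2 ^ 3 = 1
  cx : x1 * x2 = x2 * x1
  nQ : ∀ p, p * ev g Z * p⁻¹ = ev g Z → ∀ x ∈ Q, p * x * p⁻¹ ∈ Q
  cQ : ∀ p, (∀ x ∈ Q, p * x * p⁻¹ = x) → p ∈ Q
  card : Nat.card (Subgroup.centralizer {ev g Z}) = 1152
  nwc : ∃ p, p * ev g Z * p⁻¹ ∈ Q ∧ p * ev g Z * p⁻¹ ≠ ev g Z
  four : ∀ p, p * ev g Z * p⁻¹ ∈ Q → p * ev g Z * p⁻¹ ≠ ev g Z →
    Nat.card (Q ⊓ Q.map (MulAut.conj p).toMonoidHom : Subgroup G) = 4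

def InV (g : ℕ → G) (x : G) : Prop := x = ev g [] ∨ x = ev g Z ∨ x = ev g S ∨ x = ev g ZS

theorem cj_iff {p x : G} : p * x * p⁻¹ = x ↔ p * x = x * p := mul_inv_eq_iff_eq_mul

theorem cj_symm {p x : G} (h : p * x * p⁻¹ = x) : x * p * x⁻¹ = p := cj_iff.2 (cj_iff.1 h).symm

namespace U
variable {g : ℕ → G} {Q : Subgroup G} {x1 x2 : G} (u : U g Q x1 x2)
include u

theorem eq {v w : Word} (h : key v = key w) : ev g v = ev g w := (u.md.eq _ _).2 h
theorem ne {v w : Word} (h : key v ≠ key w) : ev g v ≠ ev g w := fun e => h ((u.md.eq _ _).1 e)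
theorem inV {w : Word} : InV g (ev g w) ↔ vk w := by simp only [InV, vk, u.md.eq]

theorem zc {x : G} (hx : x ∈ Q) : x * ev g Z * x⁻¹ = ev g Z := by
  obtain ⟨w, hw, rfl⟩ := u.md.all x hx
  rw [cj_iff, ← ev_append, ← ev_append]
  exact u.eq (k_z w hw)

theorem act {p : G} (h : p * ev g Z * p⁻¹ = ev g Z) :
    ∃ w0 ∈ El, ∃ w1 ∈ El, ∃ w2 ∈ El, ∃ w3 ∈ El, Act g p (subst [w0, w1, w2, w3]) := by
  have hm : ∀ i, g i ∈ Q := fun i => ev_gen g i ▸ u.md.mem _
  obtain ⟨w0, h0, e0⟩ := u.md.all _ (u.nQ p h _ (hm 0))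
  obtain ⟨w1, h1, e1⟩ := u.md.all _ (u.nQ p h _ (hm 1))
  obtain ⟨w2, h2, e2⟩ := u.md.all _ (u.nQ p h _ (hm 2))
  obtain ⟨w3, h3, e3⟩ := u.md.all _ (u.nQ p h _ (hm 3))
  refine ⟨w0, h0, w1, h1, w2, h2, w3, h3, conj_ev fun i => ?_⟩
  match i with
  | 0 => exact e0
  | 1 => exact e1
  | 2 => exact e2
  | 3 => exact e3
  | n + 4 => rw [u.one _ (by omega), nth_eq_getD]; simp [ev]

theorem ag_of {p : G} {φ ψ : Word → Word} (h : Act g p φ) (h' : Act g p ψ) : ag φ ψ :=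
  fun v _ => (u.md.eq _ _).1 ((h v).symm.trans (h' v))

theorem cent {p q : G} {φ ψ : Word → Word} (h : Act g p φ) (h' : Act g q ψ) (e : ag φ ψ) :
    ∀ x ∈ Q, q⁻¹ * p * x * (q⁻¹ * p)⁻¹ = x := by
  intro x hx
  obtain ⟨w, -, rfl⟩ := u.md.all x hx
  have : ev g w ∈ Subgroup.centralizer {q⁻¹ * p} := by
    refine ev_mem (fun i => ?_) w
    rcases lt_or_ge i 4 with hi | hi
    · have h1 := (h [2 * i]).trans ((u.eq (e _ (by interval_cases i <;> decide))).trans (h' _).symm)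
      rw [ev_gen] at h1
      rw [Subgroup.mem_centralizer_singleton_iff]
      calc g i * (q⁻¹ * p) = q⁻¹ * (q * g i * q⁻¹) * p := by group
        _ = q⁻¹ * p * g i := by rw [← h1]; group
    · rw [u.one i hi]; exact one_mem _
  exact cj_iff.2 (Subgroup.mem_centralizer_singleton_iff.1 this).symm

theorem act_of {p : G} {φ : Word → Word} {σ : List Word} (h : Act g p φ) (e : ag φ (subst σ))
    (hσ : σ.length = 4) : Act g p (subst σ) := by
  refine conj_ev fun i => ?_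
  rcases lt_or_ge i 4 with hi | hi
  · have := (h [2 * i]).trans (u.eq (e _ (by interval_cases i <;> decide)))
    rwa [ev_gen, ev_subst, ev_gen] at this
  · rw [u.one i hi, nth_eq_getD, List.getD_eq_default _ _ (by omega)]; simp [ev]

theorem nonin {p : G} {φ : Word → Word} (h : Act g p φ) (hp : p ∉ Q) (y : Word) : ¬ ag φ (inn y) :=
  fun e => hp (by simpa using mul_mem (u.md.mem y) (u.cQ _ (u.cent h (act_inn g y) e)))

/-- two elements of order three acting in the same way are equal -/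
theorem eq3 {p q : G} {φ ψ : Word → Word} (h : Act g p φ) (h' : Act g q ψ) (e : ag φ ψ)
    (hp : p ^ 3 = 1) (hq : q ^ 3 = 1) (hz : q * ev g Z * q⁻¹ = ev g Z) : p = q := by
  have h1 := u.cent h h' e
  obtain ⟨w, hw, e1⟩ := u.md.all _ (u.cQ _ h1)
  have e2 : p = q * ev g w := by rw [← e1]; group
  rcases k_c w hw (u.ag_of (act_inn g w) fun v => e1 ▸ h1 _ (u.md.mem v)) with h2 | h2
  · rw [e2, u.eq h2]; simp [ev]
  · rw [e2, u.eq h2, (show Commute q _ from cj_iff.1 hz).mul_pow, hq, one_mul, ← ev_wpow] at hp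
    exact absurd hp (u.ne (w := []) (by decide +kernel))

theorem nrm {r : G} (hr : r ∈ Q) (h2 : r * r = 1) (h1 : r ≠ 1) (hz : r ≠ ev g Z) :
    ∃ h, h * ev g Z * h⁻¹ = ev g Z ∧ h * r * h⁻¹ = ev g S := by
  obtain ⟨w, hw, rfl⟩ := u.md.all r hr
  obtain ⟨e, -, f, -, y, -, h3, h4⟩ := k_nrm w hw ((u.md.eq _ _).1 ((ev_append ..).trans h2))
    (fun e => h1 (u.eq e)) fun e => hz (u.eq e)
  have := (act_inn g y).mul ((u.a1.pow e).mul (u.a2.pow f))
  exact ⟨_, (this _).trans (u.eq h4), (this _).trans (u.eq h3)⟩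

theorem zz : ev g Z * ev g Z = 1 := (ev_append ..).symm.trans (u.eq (w := []) (by decide +kernel))
theorem z1 : ev g Z ≠ 1 := u.ne (w := []) (by decide +kernel)
theorem zs : ev g Z ≠ ev g S := u.ne (by decide +kernel)

theorem inter [Finite G] {p : G} (hp : p * ev g Z * p⁻¹ = ev g S) :
    p⁻¹ * ev g Z * p ∈ Q ∧ ∀ x ∈ Q, p⁻¹ * x * p ∈ Q → InV g x := by
  have h4 := u.four p (hp ▸ u.md.mem _) (hp ▸ u.zs.symm)
  set E : Subgroup G := Q ⊓ Q.map (MulAut.conj p).toMonoidHom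
  have hE : ∀ x, x ∈ E ↔ x ∈ Q ∧ p⁻¹ * x * p ∈ Q := fun x => and_congr Iff.rfl
    ⟨by rintro ⟨y, hy, rfl⟩; simpa [mul_assoc] using hy, fun h => ⟨_, h, by simp [mul_assoc]⟩⟩
  have hs : ev g S ∈ E := (hE _).2 ⟨u.md.mem _, by rw [← hp]; simpa [mul_assoc] using u.md.mem Z⟩
  have hz : ev g Z ∈ E := by
    by_contra hz
    refine absurd (h4.ge.trans (le_len (l := [1, ev g S]) fun x hx => ?_)) (by simp)
    by_contra hn
    simp only [List.mem_cons, List.not_mem_nil, or_false, not_or] at hn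
    obtain ⟨h1, h2⟩ := (hE x).1 hx
    obtain ⟨w, hw, rfl⟩ := u.md.all x h1
    have h3 : ev g w * ev g S = ev g S * ev g w := by
      have := u.zc h2
      rw [← hp]
      calc _ = p * (p⁻¹ * ev g w * p * ev g Z * (p⁻¹ * ev g w * p)⁻¹) * p⁻¹ * ev g w := by group
        _ = _ := by rw [this]
    rcases k_cs w hw ((u.md.eq _ _).1 (by rwa [ev_append, ev_append])) (fun e => hn.1 (u.eq e))
      (fun e => hn.2 (u.eq e)) with h | h | ⟨c, -, h5, h6⟩
    · exact hz (u.eq h ▸ hx)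
    · exact hz (u.eq h ▸ ev_append g w S ▸ mul_mem hx hs)
    · have h7 := u.eq h5
      rw [ev_append, ev_append, ← hp] at h7
      refine hz (u.eq h6 ▸ ?_)
      rw [ev_append, ← act_inn, ev_winv]
      refine mul_mem ((hE _).2 ⟨act_inn g c w ▸ u.md.mem _, ?_⟩) (inv_mem hx)
      have := u.nQ (p⁻¹ * ev g c * p) (by
        calc _ = p⁻¹ * (ev g c * (p * ev g Z * p⁻¹)) * (ev g c)⁻¹ * p := by group
          _ = _ := by rw [h7]; group) _ h2
      convert this using 1; group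
  refine ⟨((hE _).1 hz).2, fun x h1 h2 => ?_⟩
  by_contra hn
  simp only [InV, not_or] at hn
  refine absurd ((len_le (l := [x, ev g [], ev g Z, ev g S, ev g ZS]) ?_ ?_).trans h4.le) (by simp)
  · simp only [List.nodup_cons, List.mem_cons, List.not_mem_nil, or_false, not_or, u.md.eq,
      List.nodup_nil, not_false_eq_true, and_true]
    exact ⟨hn, by decide +kernel⟩
  · simp only [List.forall_mem_cons]
    exact ⟨(hE x).2 ⟨h1, h2⟩, one_mem _, hz, hs, (ev_append g Z S ▸ mul_mem hz hs :), nofun⟩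

omit u in
def Sw (g : ℕ → G) (p : G) : Prop := p * ev g Z * p⁻¹ = ev g S ∧ p * ev g S * p⁻¹ = ev g Z

omit u in
theorem Sw.inv {p : G} (h : Sw g p) : Sw g p⁻¹ := ⟨by rw [← h.2]; group, by rw [← h.1]; group⟩

theorem sw [Finite G] : ∃ p, Sw g p := by
  have h2 : ∀ p : G, p * ev g Z * p⁻¹ * (p * ev g Z * p⁻¹) = 1 := fun p => by
    calc _ = p * (ev g Z * ev g Z) * p⁻¹ := by group
      _ = 1 := by rw [u.zz]; group
  have h1 : ∀ p : G, p * ev g Z * p⁻¹ ≠ 1 := fun p e => u.z1 (by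
    calc _ = p⁻¹ * (p * ev g Z * p⁻¹) * p := by group
      _ = 1 := by rw [e]; group)
  obtain ⟨p, hp, hp'⟩ := u.nwc
  obtain ⟨h, -, h3⟩ := u.nrm hp (h2 p) (h1 p) hp'
  have h4 : (h * p) * ev g Z * (h * p)⁻¹ = ev g S := by rw [← h3]; group
  generalize h * p = q at h4
  obtain ⟨k, h5, h6⟩ := u.nrm (u.inter h4).1 (by simpa using h2 q⁻¹) (by simpa using h1 q⁻¹)
    fun e => u.zs (by rw [← h4]; nth_rw 2 [← e]; group)
  refine ⟨q * k⁻¹, ?_, ?_⟩
  · rw [← h4]; nth_rw 1 [← h5]; group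
  · rw [← h6]; group

theorem ss : ev g S * ev g S = 1 := (ev_append ..).symm.trans (u.eq (w := []) (by decide +kernel))

section
variable [Finite G] {p : G} (hp : Sw g p) {X : Word} (hX : key (inn X S) = key S)
include hp hX

theorem pz : p * ev g X * p⁻¹ * ev g Z * (p * ev g X * p⁻¹)⁻¹ = ev g Z := by
  rw [← hp.2]; nth_rw 2 [← u.eq hX]; rw [← act_inn]; group

theorem ps : p * ev g X * p⁻¹ * ev g S * (p * ev g X * p⁻¹)⁻¹ = ev g S := by
  rw [← hp.1]; nth_rw 2 [← u.zc (u.md.mem X)]; group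

theorem pV {φ : Word → Word} (h : Act g (p * ev g X * p⁻¹) φ) {Y : Word} (hY : key (inn Y S) = key S) :
    vk (φ Y ++ winv Y) := by
  rw [← u.inV]
  refine (u.inter hp.1).2 _ (u.md.mem _) ?_
  rw [ev_append, ev_winv, ← h]
  have := mul_mem (u.md.mem X) (u.nQ _ (u.pz hp.inv hY) _ (inv_mem (u.md.mem X)))
  convert this using 1; group

theorem pQ (hV : ¬ vk X) : p * ev g X * p⁻¹ ∉ Q := fun h => by
  have e : ev g X = p⁻¹ * (p * ev g X * p⁻¹) * p⁻¹⁻¹ := by group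
  refine hV (u.inV.1 ?_)
  rcases (u.inter hp.1).2 _ h (by simpa [mul_assoc] using u.md.mem X) with h | h | h | h <;>
    rw [h] at e
  · exact .inl (by simpa [ev] using e)
  · exact .inr (.inr (.inl (e.trans hp.inv.1)))
  · exact .inr (.inl (e.trans hp.inv.2))
  · refine .inr (.inr (.inr (e.trans ?_)))
    rw [show ev g ZS = ev g Z * ev g S from ev_append g Z S]
    calc _ = (p⁻¹ * ev g Z * p⁻¹⁻¹) * (p⁻¹ * ev g S * p⁻¹⁻¹) := by group
      _ = _ := by rw [hp.inv.1, hp.inv.2, cj_iff.1 (u.zc (u.md.mem S))]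

theorem type (hV : ¬ vk X) (h2 : key (X ++ X) = key []) :
    ∃ σ ∈ T2, Act g (p * ev g X * p⁻¹) (subst σ) := by
  obtain ⟨w0, h0, w1, h1, w2, h2', w3, h3, h⟩ := u.act (u.pz hp hX)
  have e : ∀ v, ev g (subst [w0, w1, w2, w3] v) = ev (fun i => ev g (nth [w0, w1, w2, w3] [] i)) v :=
    ev_subst _ _
  refine ⟨_, k_type w0 h0 ?_ w2 h2' ?_ w1 h1 w3 h3 ?_ (fun r hr => ?_) ?_
    (fun y _ => u.nonin h (u.pQ hp hX hV) y), h⟩
  · have := u.pV hp hX h (Y := [0]) (by decide +kernel)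
    rw [← u.inV, ev_append] at this ⊢
    rw [e] at this
    exact (mul_one (ev g w0)) ▸ this
  · rw [← u.md.eq, ev_append, ← u.ps hp hX, h, e]
    exact congrArg _ (mul_one _).symm
  · have := u.pV hp hX h (Y := A) (by decide +kernel)
    rw [← u.inV, ev_append] at this ⊢
    rw [e] at this
    rw [ev_append]
    exact (mul_one (ev g w3)) ▸ this
  · rw [← u.md.eq, ← h, u.rel r hr]; simp [ev]
  · refine u.ag_of (h.mul h) fun v => ?_
    have : p * ev g X * p⁻¹ * (p * ev g X * p⁻¹) = p * ev g (X ++ X) * p⁻¹ := by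
      rw [ev_append]; group
    rw [this, u.eq h2]; simp [ev]

end

theorem pair [Finite G] {p : G} (hp : Sw g p) : ∃ α ∈ T2, ∃ β ∈ T2,
    Act g (p * ev g A * p⁻¹) (subst α) ∧ Act g (p * ev g B * p⁻¹) (subst β) ∧
    (∀ y ∈ El, ¬ ag (fun u => subst α (subst β u)) (inn y)) ∧
    ag (fun u => subst α (subst β (subst α (subst β u)))) (inn S) := by
  obtain ⟨α, h1, ha⟩ := u.type hp (X := A) (by decide +kernel) (by decide +kernel) (by decide +kernel)
  obtain ⟨β, h2, hb⟩ := u.type hp (X := B) (by decide +kernel) (by decide +kernel) (by decide +kernel)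
  have e : p * ev g A * p⁻¹ * (p * ev g B * p⁻¹) = p * ev g (A ++ B) * p⁻¹ := by
    rw [ev_append]; group
  refine ⟨α, h1, β, h2, ha, hb, fun y _ => u.nonin (ha.mul hb) (e ▸ u.pQ hp (by decide +kernel)
    (by decide +kernel)) y, u.ag_of ((ha.mul hb).mul (ha.mul hb)) ?_⟩
  have : p * ev g (A ++ B) * p⁻¹ * (p * ev g (A ++ B) * p⁻¹) = ev g S := by
    rw [← hp.1, ← u.eq (show key (A ++ B ++ (A ++ B)) = key Z by decide +kernel), ev_append g (A ++ B)]
    group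
  rw [e, this]; exact act_inn g S

theorem nez [Finite G] {p : G} (hp : Sw g p) : ∀ X ∈ [A, B], ∀ Y ∈ [A, B],
    p * ev g X * p⁻¹ * ev g Y * (p * ev g X * p⁻¹)⁻¹ * (ev g Y)⁻¹ ≠ ev g Z := by
  obtain ⟨α, h1, β, h2, ha, hb, h3, h4⟩ := u.pair hp
  have h := (k_pair α h1 β h2 h3 h4).1
  simp only [List.forall_mem_cons (l := [B]), List.forall_mem_singleton (a := B)]
  refine ⟨⟨?_, ?_⟩, ?_, ?_⟩ <;> simp only [ha _, hb _, ← ev_winv, ← ev_append]
  exacts [u.ne (h A (by simp)).1, u.ne (h B (by simp)).1, u.ne (h A (by simp)).2,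
    u.ne (h B (by simp)).2]

theorem nes [Finite G] {p : G} (hp : Sw g p) : ∀ X ∈ [A, B], ∀ Y ∈ [A, B],
    p * ev g X * p⁻¹ * ev g Y * (p * ev g X * p⁻¹)⁻¹ * (ev g Y)⁻¹ ≠ ev g S := fun X hX Y hY e => by
  refine u.nez hp.inv Y hY X hX ?_
  rw [← hp.inv.2, ← inv_eq_of_mul_eq_one_right u.ss, ← e]; group

/-- the elements `a`, `b`, `t` -/
theorem abt [Finite G] : ∃ a b t : G, Act g a (subst α0) ∧ Act g b (subst β0) ∧ a * a = 1 ∧ b * b = 1 ∧
    a * b * (a * b) = ev g S ∧ t * t = 1 ∧ t * a * t⁻¹ = a ∧ t * b * t⁻¹ = b ∧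
    t * ev g S * t⁻¹ = ev g S ∧ t * ev g Z * t⁻¹ = ev g ZS := by
  obtain ⟨p, hp⟩ := u.sw
  obtain ⟨α, h1, β, h2, ha, hb, h3, h4⟩ := u.pair hp
  have h := u.nes hp
  obtain ⟨e, he, f, hf, h5⟩ := (k_pair α h1 β h2 h3 h4).2 fun X hX =>
    ⟨fun e => h A (by simp) X hX (by rw [ha, ← ev_winv, ← ev_append]; exact u.eq e),
      fun e => h B (by simp) X hX (by rw [hb, ← ev_winv, ← ev_append]; exact u.eq e)⟩
  have k1 : ∀ e ∈ [[], S], ∃ e' ∈ [[], Z], ev g e = p * ev g e' * p⁻¹ := by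
    simp only [List.forall_mem_cons (l := [S]), List.forall_mem_singleton (a := S)]
    exact ⟨⟨[], by simp, by simp [ev]⟩, Z, by simp, hp.1.symm⟩
  obtain ⟨e', he', e1⟩ := k1 e he
  obtain ⟨f', hf', e2⟩ := k1 f hf
  have k2 : ∀ X Y : Word, ∀ α β, Act g (p * ev g X * p⁻¹) (subst α) → Act g (p * ev g Y * p⁻¹) (subst β) →
      ag (fun u => inn e (subst α u)) (subst α0) → ag (fun u => inn f (subst β u)) (subst β0) →
      key (e' ++ X ++ (e' ++ X)) = key [] ∧ key (f' ++ Y ++ (f' ++ Y)) = key [] ∧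
      key (e' ++ X ++ (f' ++ Y) ++ (e' ++ X ++ (f' ++ Y))) = key Z ∧
      key (inn T (e' ++ X)) = key (e' ++ X) ∧ key (inn T (f' ++ Y)) = key (f' ++ Y) → _ :=
    fun X Y α β ha hb h5 h6 ⟨q1, q2, q3, q4, q5⟩ => by
      have m : ∀ v w, p * ev g v * p⁻¹ * (p * ev g w * p⁻¹) = p * ev g (v ++ w) * p⁻¹ := fun v w => by
        rw [ev_append]; group
      have c : ∀ v w, p * ev g v * p⁻¹ * (p * ev g w * p⁻¹) * (p * ev g v * p⁻¹)⁻¹ =
          p * ev g (inn v w) * p⁻¹ := fun v w => by rw [← act_inn]; group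
      have ha' := u.act_of ((act_inn g e).mul ha) h5 rfl
      have hb' := u.act_of ((act_inn g f).mul hb) h6 rfl
      rw [e1, m] at ha'
      rw [e2, m] at hb'
      exact (⟨_, _, p * ev g T * p⁻¹, ha', hb', by rw [m, u.eq q1]; simp [ev],
        by rw [m, u.eq q2]; simp [ev], by rw [m, m, u.eq q3, hp.1],
        by rw [m, u.eq (show key (T ++ T) = key [] by decide +kernel)]; simp [ev],
        by rw [c, u.eq q4], by rw [c, u.eq q5],
        by rw [← hp.1, c, u.eq (show key (inn T Z) = key Z by decide +kernel)],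
        by rw [show ev g ZS = ev g Z * ev g S from ev_append g Z S, ← hp.1]; nth_rw 1 2 [← hp.2]
           rw [c, m, u.eq (show key (inn T S) = key (S ++ Z) by decide +kernel)]⟩ :
        ∃ a b t : G, Act g a (subst α0) ∧ Act g b (subst β0) ∧ a * a = 1 ∧ b * b = 1 ∧
    a * b * (a * b) = ev g S ∧ t * t = 1 ∧ t * a * t⁻¹ = a ∧ t * b * t⁻¹ = b ∧
    t * ev g S * t⁻¹ = ev g S ∧ t * ev g Z * t⁻¹ = ev g ZS)
  rcases h5 with h5 | h5
  · exact k2 A B α β ha hb h5.1 h5.2 (by clear k2 e1 e2; revert e' f'; decide +kernel)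
  · exact k2 B A β α hb ha h5.1 h5.2 (by clear k2 e1 e2; revert e' f'; decide +kernel)

omit u in
theorem arel {l : List G} (hl : ∀ i < 4, gl l i = g i) {φ : Word → Word} (m : ℕ) (h : Act g (gl l m) φ)
    (v w : Word) {r : Word} (e : ev g (φ v) = ev g w) (hr : r = 2 * m :: (v ++ (2 * m + 1) :: winv w) ∧
      (∀ a ∈ v, a < 2 * 4) ∧ ∀ a ∈ w, a < 2 * 4) : ev (gl l) r = 1 := by
  have : ev (gl l) r = gl l m * ev (gl l) v * (gl l m)⁻¹ * (ev (gl l) w)⁻¹ := by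
    have h1 : lv (gl l) (2 * m + 1) = (gl l m)⁻¹ := by
      simp [lv, Nat.add_mod, show (2 * m + 1) / 2 = m by omega]
    rw [hr.1, ← ev_winv]; simp [ev, lv_even, h1, mul_assoc]
  rw [this, ev_congr hl hr.2.1, ev_congr hl hr.2.2, h, e, mul_inv_cancel]

/-- the presentation of the centraliser holds -/
theorem main [Finite G] : ∃ (l : List G) (t : G), l.length = 8 ∧ (∀ r ∈ U43H.rels, ev (gl l) r = 1) ∧
    ev (gl l) Z = ev g Z ∧ t * t = 1 ∧ t * gl l 6 * t⁻¹ = gl l 6 ∧ t * gl l 7 * t⁻¹ = gl l 7 ∧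
    t * ev (gl l) S * t⁻¹ = ev (gl l) S ∧ t * ev (gl l) Z * t⁻¹ = ev (gl l) ZS := by
  obtain ⟨a, b, t, ha, hb, a2, b2, ab, t2, ta, tb, ts, tz⟩ := u.abt
  have hl : ∀ i < 4, gl [g 0, g 1, g 2, g 3, x1, x2, a, b] i = g i := fun i hi => by
    interval_cases i <;> rfl
  have ai := inv_eq_of_mul_eq_one_right a2
  have bi := inv_eq_of_mul_eq_one_right b2
  have xa : a * x1 * a = x2 := u.eq3 ((ha.mul u.a1).mul ha) u.a2 k_xa
    (by nth_rw 2 [← ai]; rw [conj_pow, u.c1]; simp) u.c2 ((u.a2 _).trans (u.eq (by decide +kernel)))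
  have x2i : x2 * x2 = x2⁻¹ := eq_inv_of_mul_eq_one_left (by rw [← u.c2, pow_three'])
  have xb : b * x1 * b = x2 * x2 * ev g [4] := by
    have h := (u.a2.mul u.a2).mul (act_inn g [4])
    refine u.eq3 ((hb.mul u.a1).mul hb) h k_xb (by nth_rw 2 [← bi]; rw [conj_pow, u.c1]; simp) ?_
      ((h _).trans (u.eq (by decide +kernel)))
    have : (x2⁻¹ * ev g [4]) ^ 3 = (x2 ^ 3)⁻¹ * (x2 * (x2 * ev g [4] * x2⁻¹) * x2⁻¹) *
        (x2 * ev g [4] * x2⁻¹) * ev g [4] := by simp only [pow_succ]; group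
    rw [x2i, this, u.c2, u.a2, u.a2, inv_one, one_mul, ← ev_append, ← ev_append]
    exact u.eq (w := []) (by decide +kernel)
  refine ⟨[g 0, g 1, g 2, g 3, x1, x2, a, b], t, rfl, ?_, ev_congr hl (by decide), t2, ta, tb,
    by rwa [ev_congr hl (by decide)], by rwa [ev_congr hl (by decide), ev_congr hl (by decide)]⟩
  have q : ∀ r, r ∈ rels → ev (gl [g 0, g 1, g 2, g 3, x1, x2, a, b]) r = 1 := fun r hr =>
    (ev_congr hl ((by decide : ∀ r ∈ rels, ∀ a ∈ r, a < 2 * 4) r hr)).trans (u.rel r hr)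
  simp only [U43H.rels, List.forall_mem_cons, List.not_mem_nil, false_imp_iff, implies_true, and_true]
  refine ⟨q _ (by decide), q _ (by decide), q _ (by decide), q _ (by decide), q _ (by decide),
    q _ (by decide), q _ (by decide), q _ (by decide), q _ (by decide), q _ (by decide), ?_,
    arel hl 4 u.a1 [0] [2] (u.eq (by decide +kernel)) (by decide +kernel),
    arel hl 4 u.a1 [2] [0,2] (u.eq (by decide +kernel)) (by decide +kernel), ?_,
    arel hl 5 u.a2 [4] [6] (u.eq (by decide +kernel)) (by decide +kernel),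
    arel hl 5 u.a2 [6] [4,6] (u.eq (by decide +kernel)) (by decide +kernel),
    arel hl 4 u.a1 [4] [4] (u.eq (by decide +kernel)) (by decide +kernel),
    arel hl 4 u.a1 [6] [6] (u.eq (by decide +kernel)) (by decide +kernel),
    arel hl 5 u.a2 [0] [0] (u.eq (by decide +kernel)) (by decide +kernel),
    arel hl 5 u.a2 [2] [2] (u.eq (by decide +kernel)) (by decide +kernel), ?_, ?_, ?_, ?_,
    arel hl 6 ha [0] [4] (u.eq (by decide +kernel)) (by decide +kernel),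
    arel hl 6 ha [2] [6] (u.eq (by decide +kernel)) (by decide +kernel),
    arel hl 7 hb [0] [4] (u.eq (by decide +kernel)) (by decide +kernel),
    arel hl 7 hb [2] [4,6] (u.eq (by decide +kernel)) (by decide +kernel), ?_, ?_⟩
  · show x1 * (x1 * (x1 * 1)) = 1
    rw [mul_one, ← pow_three, u.c1]
  · show x2 * (x2 * (x2 * 1)) = 1
    rw [mul_one, ← pow_three, u.c2]
  · show x1 * (x2 * (x1⁻¹ * (x2⁻¹ * 1))) = 1
    rw [← mul_assoc, u.cx]; group
  · show a * (a * 1) = 1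
    rw [mul_one, a2]
  · show b * (b * 1) = 1
    rw [mul_one, b2]
  · show a * (b * (a * (b * ((g 2)⁻¹ * ((g 0)⁻¹ * 1))))) = 1
    have : a * b * (a * b) = g 0 * (g 2 * 1) := ab
    calc _ = a * b * (a * b) * ((g 2)⁻¹ * (g 0)⁻¹) := by group
      _ = 1 := by rw [this]; group
  · show a * (x1 * (a⁻¹ * (x2⁻¹ * 1))) = 1
    rw [ai, ← xa]; group
  · show b * (x1 * (b⁻¹ * ((g 2)⁻¹ * (x2 * 1)))) = 1
    have : b * x1 * b = x2 * x2 * (g 2 * 1) := xb
    rw [bi, ← mul_assoc x1, ← mul_assoc b, ← mul_assoc b, this, x2i]; group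

end U
end CA.U43B
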